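import Mathlib
import Cfsg.Agent.CHEV.ChevBlocks
import Cfsg.Agent.CHEV.TwSyl
import Cfsg.Agent.CHEV.ClTwU
import Cfsg.Agent.CHEV.ClTwO
import Cfsg.Agent.CHAR.Prod
import Cfsg.Agent.BLK.DefZero
import Cfsg.Agent.BLK.GRoots
import Cfsg.Agent.CLAS.OrthIso6
import Cfsg.Agent.S0250

/-! # Steinberg characters of the classical groups -/

set_option autoImplicit false

namespace CL.ClSt

open Cfsg CL.BN CL.Cox

/-- `G` has an irreducible character whose degree is the `p`-part of `|G|`. -/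
def HasSt (p : ℕ) (G : Type*) [Group G] : Prop :=
  ∃ χ : G → ℂ, IsIrrCharacter G χ ∧ χ 1 = (p ^ (Nat.card G).factorization p : ℕ)

section Basic

variable {p : ℕ} {G H : Type*} [Group G] [Group H]

theorem HasSt.result [Finite G] [Fact p.Prime] (h : HasSt p G) :
    ∃ χ : G → ℂ, IsIrrCharacter G χ ∧ ∀ P : Sylow p G, χ 1 = Nat.card P ∧ ∀ x : G, x ∈ P → x ≠ 1 → χ x = 0 := by
  obtain ⟨χ, hχ, h2⟩ := h
  have hp : p.Prime := Fact.out
  obtain ⟨M, hM⟩ := CL.Glb.exists_isPModular hp
  refine ⟨χ, hχ, fun P => ⟨by rw [h2, P.card_eq_multiplicity], fun x hx hx1 => ?_⟩⟩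
  refine CL.Blk.DefZero.vanish (χ := ⟨χ, hχ⟩) hM ((CL.Blk.defZero_iff_pow_dvd hp).2 ?_) ?_
  · exact (Nat.cast_injective (R := ℂ) (h2.symm.trans (CL.Blk.irr_one_eq ⟨χ, hχ⟩))).dvd
  · obtain ⟨k, hk⟩ := (IsPGroup.iff_orderOf.1 P.2) ⟨x, hx⟩
    rw [← Subgroup.orderOf_coe] at hk
    rcases k with _ | k
    · exact absurd (orderOf_eq_one_iff.1 hk) hx1
    · exact hk ▸ dvd_pow_self p k.succ_ne_zero

theorem HasSt.of_surj (h : HasSt p H) (f : G →* H) (hf : Function.Surjective f)
    (hc : (Nat.card G).factorization p = (Nat.card H).factorization p) : HasSt p G := by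
  obtain ⟨χ, hχ, h1⟩ := h
  exact ⟨_, hχ.comp_surjective f hf, by simpa [hc] using h1⟩

theorem HasSt.congr (h : HasSt p H) (e : G ≃* H) : HasSt p G :=
  h.of_surj e.toMonoidHom e.surjective (by rw [Nat.card_congr e.toEquiv])

theorem HasSt.prod [Finite G] [Finite H] (h : HasSt p G) (h' : HasSt p H) : HasSt p (G × H) := by
  obtain ⟨χ, hχ, h1⟩ := h
  obtain ⟨ψ, hψ, h2⟩ := h'
  refine ⟨_, hχ.prod hψ, ?_⟩
  rw [Nat.card_prod, Nat.factorization_mul Nat.card_pos.ne' Nat.card_pos.ne', Finsupp.add_apply, pow_add,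
    Nat.cast_mul, ← h1, ← h2]
  rfl

theorem hasSt_of_not_dvd (h : ¬ p ∣ Nat.card G) : HasSt p G :=
  ⟨_, CL.Char.isIrrCharacter_one, by rw [Nat.factorization_eq_zero_of_not_dvd h]; simp⟩

theorem hasSt_of_subsingleton (hp : p.Prime) [Subsingleton G] : HasSt p G :=
  hasSt_of_not_dvd (by rw [Nat.card_of_subsingleton (1 : G)]; exact hp.not_dvd_one)

/-- `G' / Z(G')` is trivial when `G` has an abelian subgroup of index at most two. -/
theorem subsingleton_pOm (A : Subgroup G) (hA : ∀ a ∈ A, ∀ b ∈ A, a * b = b * a)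
    (h : commutator G ≤ A) : Subsingleton (commutator G ⧸ Subgroup.center (commutator G)) := by
  have : Subgroup.center (commutator G) = ⊤ := by
    rw [eq_top_iff]
    intro x _
    rw [Subgroup.mem_center_iff]
    exact fun y => Subtype.ext (hA _ (h y.2) _ (h x.2))
  rw [this]
  exact QuotientGroup.subsingleton_quotient_top

theorem hasSt_of_bn [Finite G] (P : BNPair G) (n : G)
    (hn : P.B.map (MulAut.conj n).toMonoidHom ⊓ P.B ≤ P.N)
    (hB : (P.B ⊓ P.N).relIndex P.B = p ^ (Nat.card G).factorization p) : HasSt p G := by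
  classical
  have := Fintype.ofFinite G
  have := Fintype.ofFinite P.S
  have := finite_W P
  have he : Function.Surjective (id : P.S → P.S) := Function.surjective_id
  refine ⟨_, isIrr_st P he, ?_⟩
  rw [st_one P he, ← hB]
  congr 1
  apply Nat.dvd_antisymm
  · obtain ⟨m, hm, hw⟩ := exists_N_δ P (wL P he Set.univ)
    rw [← hw, cellIdx_δ]
    apply Subgroup.relIndex_dvd_of_le_left
    intro t ht
    refine ⟨m⁻¹ * t * m, ?_, by simp [mul_assoc]⟩
    have := P.conj_mem m⁻¹ (inv_mem hm) t ht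
    simpa using this
  · have h1 : (P.B ⊓ P.N).relIndex P.B ∣ cellIdx P (δ P n) := by
      rw [cellIdx_δ, ← Subgroup.inf_relIndex_right (P.B.map _)]
      exact Subgroup.relIndex_dvd_of_le_left _ (le_inf inf_le_right hn)
    refine h1.trans ?_
    have hu : (δ P n)⁻¹ ∈ Subgroup.closure (sE P id '' Set.univ) := by
      have := WE_univ P he
      rw [WE] at this
      rw [this]; trivial
    have h2 := (exch_sE P he).len_mul_longest_add hu
    rw [(exch_sE P he).toGen.len_inv, len_sE P he, len_sE P he, len_sE P he] at h2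
    have h3 : wL P he Set.univ = δ P n * ((δ P n)⁻¹ * wL P he Set.univ) := by group
    rw [h3, cellIdx_mul P (by rw [← h3]; exact h2.symm.trans (add_comm _ _))]
    exact Dvd.intro _ rfl

end Basic

section Chev

open CL.Chev CL.Chev.StData CL.MSS

variable {ι κ κ' : Type*} [Fintype κ] [DecidableEq κ] {R : RootSys ι κ} {F G : Type*} [Field F] [Group G]
  {S : StData R F G} [Finite ι] {p : ℕ} [Fact p.Prime] [CharP F p] [Finite F]

theorem hasSt_of_good [Finite G] (hS : S.Good) (htop : S.grp = ⊤) (hH : ¬ p ∣ Nat.card S.H) : HasSt p G := by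
  have := Fintype.ofFinite G
  exact ⟨_, isIrr_st _ (hS.idx_surjective htop), by rw [hS.st_one htop, hS.card_U_eq_pow htop hH]⟩

omit [Finite ι] in
theorem not_dvd_card_H_of_R3 (hS : S.R3) : ¬ p ∣ Nat.card S.H := by
  intro h
  have h1 : Nat.card S.H ∣ Nat.card (κ → Fˣ) := by
    rw [← hS.range_torHom]
    exact Subgroup.card_range_dvd _
  have := Fintype.ofFinite F
  rw [Nat.card_pi, Finset.prod_const, Nat.card_units] at h1
  have hp : p.Prime := Fact.out
  have h2 := hp.dvd_of_dvd_pow (h.trans h1)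
  rw [Nat.card_eq_fintype_card] at h2
  exact hp.not_dvd_one ((Nat.dvd_sub_iff_right Fintype.card_pos
      ((CharP.cast_eq_zero_iff F p _).1 (FiniteField.cast_card_eq_zero F))).1 h2)

theorem hasSt_of_tw {T : S.Twist κ'} {G' : Type*} [Group G'] [Finite G'] {j : G' →* G} (hM : T.IsTw j.range)
    (hS : S.Good) (hj : Function.Injective j) (hH : ¬ p ∣ Nat.card S.H) : HasSt p G' := by
  obtain ⟨_, ⟨hn, n, rfl⟩, ha⟩ := hM.exists_acts hS T.w0_univ_mem_W1
  have hHN : ∀ x : G', j x ∈ S.H ↔ j x ∈ S.B ∧ j x ∈ S.N := fun x => by rw [← hS.B_inf_N]; rfl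
  refine hasSt_of_bn (hM.bnPair hS hj) n⁻¹ ?_ ?_
  · rintro _ ⟨⟨x, hx, rfl⟩, hx'⟩
    have hx0 : j x ∈ S.B := hx
    have h1 := (hS.mem_XS_sup_H_iff ha (j (n⁻¹ * x * n⁻¹⁻¹))).2 ⟨hx', by simpa [mul_assoc] using hx0⟩
    have h0 : S.XS (R.ninvs (R.w0 Set.univ)) = ⊥ := by
      rw [R.ninvs_w0]; exact UJ_univ
    rw [h0, bot_sup_eq] at h1
    exact ((hHN _).1 h1).2
  · have h1 := (hM.sylIn_comap_U hS hj hH).card_eq_pow_factorization
    rw [Subgroup.card_top] at h1
    rw [← h1]
    have hc : ∀ K : Subgroup G, Nat.card (K.comap j) = Nat.card (K ⊓ j.range : Subgroup G) := fun K => by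
      rw [inf_comm, ← Subgroup.map_comap_eq, Subgroup.card_map_of_injective hj]
    have h2 := hM.card_B hS
    rw [← hc, ← hc, ← hc] at h2
    have h3 : (hM.bnPair hS hj).B ⊓ (hM.bnPair hS hj).N = S.H.comap j := by
      ext x; exact (hHN x).symm
    rw [h3, Twist.IsTw.bnPair_B]
    have h4 := ((S.H.comap j).subgroupOf (S.B.comap j)).index_mul_card
    rw [Nat.card_congr (Subgroup.subgroupOfEquivOfLe (Subgroup.comap_mono S.H_le_B)).toEquiv, h2] at h4
    exact Nat.eq_of_mul_eq_mul_right Nat.card_pos h4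

end Chev

section Classical

open CL.Chev.Cl CL.Orth CL.OrthE Matrix
open scoped commutatorElement

variable {F : Type*} [Field F] [Fintype F] (p : ℕ) [Fact p.Prime] [CharP F p]

theorem hasSt_PSL (n : ℕ) : HasSt p (ProjectiveSpecialLinearGroup (Fin (n + 1)) F) :=
  hasSt_of_good (pslSt_good F n) (pslSt_top F n) (not_dvd_card_H_of_R3 (pslSt_R3 F n))

theorem hasSt_SL (n : ℕ) : HasSt p (SpecialLinearGroup (Fin (n + 1)) F) :=
  hasSt_of_good (slSt_good F n) (slSt_top F n) (not_dvd_card_H_of_R3 (slSt_R3 F n))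

theorem hasSt_PSp (n : ℕ) : HasSt p (PSp (n + 1) F) :=
  hasSt_of_good (pspSt_good F n) (pspSt_top F n) (not_dvd_card_H_of_R3 (pspSt_R3 F n))

theorem hasSt_PSU {q : ℕ} (hF : Fintype.card F = q ^ 2) (n : ℕ) : HasSt p (PSU (n + 1) F q) := by
  obtain ⟨j, hj, -, hM⟩ := exists_psuEmb hF n
  exact hasSt_of_tw hM (pslSt_good F n) hj (not_dvd_card_H_of_R3 (pslSt_R3 F n))

theorem hasSt_POmegaOdd (h2 : (2 : F) ≠ 0) (n : ℕ) : HasSt p (POmega F (quadFormOdd (n + 1) F)) := by
  rcases Nat.eq_zero_or_pos n with rfl | hn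
  · exact (hasSt_PSL p 1).congr ((pOmegaEquiv (QOdd 1 F)).trans (nonempty_pOm_QOdd_one h2).some)
  · have hF : ∃ a : F, a ≠ 0 ∧ a ≠ 1 := ⟨-1, by simp, fun h => h2 (by linear_combination -h)⟩
    exact hasSt_of_good (pomOddSt_good hn hF) (pomOddSt_top hn hF) (not_dvd_card_H_of_R3 (pomOddSt_R3 hn hF))

theorem subsingleton_pOm_dihedral {G : Type*} [Group G] {n : ℕ} (e : G ≃* DihedralGroup n) :
    Subsingleton (pOm G) := by
  have : Subsingleton (pOm (DihedralGroup n)) := by
    let A : Subgroup (DihedralGroup n) :=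
      { carrier := Set.range DihedralGroup.r
        one_mem' := ⟨0, rfl⟩
        mul_mem' := by rintro _ _ ⟨i, rfl⟩ ⟨j, rfl⟩; exact ⟨i + j, rfl⟩
        inv_mem' := by rintro _ ⟨i, rfl⟩; exact ⟨-i, rfl⟩ }
    refine subsingleton_pOm A ?_ ?_
    · rintro _ ⟨i, rfl⟩ _ ⟨j, rfl⟩; simp [add_comm]
    · rw [commutator_def, Subgroup.commutator_le]
      rintro (i | i) - (j | j) - <;> exact ⟨_, rfl⟩
  exact (pOmCongr e).toEquiv.subsingleton

/-- The commutator subgroup of a group of order `72` with a normal subgroup of order `9`. -/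
theorem not_four_dvd_card_commutator {G : Type*} [Group G] [Finite G] (hG : Nat.card G = 72) (N : Subgroup G)
    [N.Normal] (hN : Nat.card N = 9) : Nat.card (commutator G) ∣ 18 := by
  have hQ : Nat.card (G ⧸ N) = 2 ^ 3 := by
    have := Subgroup.card_eq_card_quotient_mul_card_subgroup N
    rw [hG, hN] at this
    omega
  have : Fact (Nat.Prime 2) := ⟨Nat.prime_two⟩
  have hP : IsPGroup 2 (G ⧸ N) := IsPGroup.of_card hQ
  have : Nontrivial (G ⧸ N) := Finite.one_lt_card_iff_nontrivial.1 (by omega)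
  have := hP.center_nontrivial
  obtain ⟨z, hz⟩ := exists_prime_orderOf_dvd_card' (G := Subgroup.center (G ⧸ N)) 2 (by
    obtain ⟨k, hk⟩ := (IsPGroup.iff_card).1 (hP.to_subgroup (Subgroup.center (G ⧸ N)))
    rcases k with _ | k
    · exact absurd hk (by simpa using (Finite.one_lt_card (α := Subgroup.center (G ⧸ N))).ne')
    · exact hk ▸ dvd_pow_self 2 k.succ_ne_zero)
  let Z := Subgroup.zpowers (z : G ⧸ N)
  have hZc : Z ≤ Subgroup.center (G ⧸ N) := Subgroup.zpowers_le.2 z.2
  have : Z.Normal := ⟨fun x hx g => by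
    rw [Subgroup.mem_center_iff.1 (hZc hx) g, mul_inv_cancel_right]; exact hx⟩
  have hZ : Nat.card Z = 2 := by rw [Nat.card_zpowers, Subgroup.orderOf_coe, hz]
  have hQ2 : Nat.card ((G ⧸ N) ⧸ Z) = 2 ^ 2 := by
    have := Subgroup.card_eq_card_quotient_mul_card_subgroup Z
    rw [hQ, hZ] at this
    omega
  let _ := IsPGroup.commGroupOfCardEqPrimeSq hQ2
  let f : G →* (G ⧸ N) ⧸ Z := (QuotientGroup.mk' Z).comp (QuotientGroup.mk' N)
  have hf : Function.Surjective f := (QuotientGroup.mk'_surjective Z).comp (QuotientGroup.mk'_surjective N)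
  have h1 : commutator G ≤ f.ker := Abelianization.commutator_subset_ker f
  have h2 : Nat.card f.ker = 18 := by
    have := f.ker.index_mul_card
    rw [Subgroup.index_ker, MonoidHom.range_eq_top.2 hf, Subgroup.card_top, hQ2, hG] at this
    omega
  exact h2 ▸ Subgroup.card_dvd_of_le h1

/-- The wreath product of `S₃` by a group of order two. -/
theorem hasSt_wreath {G H : Type*} [Group G] [Group H] [Finite G] (e : H ≃* Equiv.Perm (Fin 3)) (hH : HasSt 2 H)
    (φ : H × H →* G) (hφ : Function.Injective φ) (hG : Nat.card G = 72) (τ : G)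
    (hτ : ∀ a b, τ * φ (a, b) * τ⁻¹ = φ (b, a)) : HasSt 2 (pOm G) := by
  have hcH : Nat.card H = 6 := by rw [Nat.card_congr e.toEquiv, Nat.card_perm]; simp [Nat.factorial]
  have : Finite H := Nat.finite_of_card_ne_zero (by omega)
  have hidx : φ.range.index = 2 := by
    have h2 := φ.range.index_mul_card
    rw [← Nat.card_congr (MonoidHom.ofInjective hφ).toEquiv, Nat.card_prod, hG, hcH] at h2
    omega
  have hle : commutator G ≤ φ.range := by
    have := Subgroup.normal_of_index_eq_two hidx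
    have hc : Nat.card (G ⧸ φ.range) = 2 := hidx
    have : Fact (Nat.Prime 2) := ⟨Nat.prime_two⟩
    have := isCyclic_of_prime_card hc
    let _ := IsCyclic.commGroup (α := G ⧸ φ.range)
    have h1 := Abelianization.commutator_subset_ker (QuotientGroup.mk' φ.range)
    rwa [QuotientGroup.ker_mk'] at h1
  let f : commutator G →* H := (MonoidHom.fst H H).comp
    ((MonoidHom.ofInjective hφ).symm.toMonoidHom.comp (Subgroup.inclusion hle))
  have hfφ : ∀ (x : H × H) (hx : φ x ∈ commutator G), f ⟨φ x, hx⟩ = x.1 := fun x hx => by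
    have : (MonoidHom.ofInjective hφ).symm ⟨φ x, ⟨x, rfl⟩⟩ = x := (MulEquiv.symm_apply_eq _).2 rfl
    exact congrArg Prod.fst this
  have hf : Function.Surjective f := fun a => by
    have hx : φ (a, a⁻¹) ∈ commutator G := by
      have : φ (a, a⁻¹) = ⁅φ (a, 1), τ⁆ := by
        rw [commutatorElement_def, ← map_inv, mul_assoc, mul_assoc, ← mul_assoc τ, Prod.inv_mk, hτ, ← map_mul]
        simp
      rw [this]
      exact Subgroup.commutator_mem_commutator (Subgroup.mem_top _) (Subgroup.mem_top _)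
    exact ⟨⟨_, hx⟩, hfφ _ hx⟩
  have hZ : Subgroup.center (commutator G) ≤ f.ker := fun z hz => by
    have h1 : ∀ y : Equiv.Perm (Fin 3), y * e (f z) = e (f z) * y := fun y => by
      obtain ⟨y, rfl⟩ := e.surjective y
      obtain ⟨y, rfl⟩ := hf y
      rw [← map_mul, ← map_mul, Subgroup.mem_center_iff.1 hz y, map_mul, map_mul]
    have h2 : ∀ x : Equiv.Perm (Fin 3), (∀ y, y * x = x * y) → x = 1 := by decide
    exact (map_eq_one_iff e e.injective).1 (h2 _ h1)
  let K : Subgroup H := (alternatingGroup (Fin 3)).comap e.toMonoidHom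
  have hK : Nat.card K = 3 := by
    rw [← Subgroup.card_map_of_injective (f := e.toMonoidHom) e.injective,
      Subgroup.map_comap_eq_self_of_surjective e.surjective]
    have := two_mul_nat_card_alternatingGroup (α := Fin 3)
    rw [Nat.card_perm] at this
    simp [Nat.factorial] at this ⊢
    omega
  let N : Subgroup G := (K.prod K).map φ
  have hN : Nat.card N = 9 := by
    rw [Subgroup.card_map_of_injective hφ, Nat.card_congr (K.prodEquiv K).toEquiv, Nat.card_prod, hK]
  have : N.Normal := by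
    constructor
    rintro _ ⟨x, hx, rfl⟩ g
    have key : ∀ y : H × H, ∀ x ∈ K.prod K, φ y * φ x * (φ y)⁻¹ ∈ N := fun y x hx =>
      ⟨y * x * y⁻¹, (inferInstance : (K.prod K).Normal).conj_mem x hx y, by simp⟩
    by_cases hg : g ∈ φ.range
    · obtain ⟨y, rfl⟩ := hg
      exact key y x hx
    · by_cases hτ' : τ ∈ φ.range
      · exfalso
        obtain ⟨⟨s, t⟩, rfl⟩ := hτ'
        have h1 := hτ (e.symm (Equiv.swap 0 1)) 1
        rw [← map_inv, ← map_mul, ← map_mul] at h1
        have h2 := congrArg Prod.snd (hφ h1)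
        simp at h2
        exact absurd (e.symm.injective (h2.symm.trans (map_one _).symm)) (by decide)
      · obtain ⟨y, hy⟩ : g * τ⁻¹ ∈ φ.range := by
          rw [Subgroup.mul_mem_iff_of_index_two hidx, inv_mem_iff]; tauto
        have h1 : g = φ y * τ := by rw [hy]; group
        have h2 := key y (x.2, x.1) ⟨hx.2, hx.1⟩
        rw [← hτ x.1 x.2] at h2
        convert h2 using 1
        rw [h1]; group
  have h18 := not_four_dvd_card_commutator hG N hN
  let f' : pOm G →* H := QuotientGroup.lift _ f hZ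
  have hf' : Function.Surjective f' := fun a => by
    obtain ⟨x, rfl⟩ := hf a
    exact ⟨x, rfl⟩
  refine hH.of_surj f' hf' ?_
  have h1 : Nat.card (pOm G) ∣ 18 := (Subgroup.card_quotient_dvd_card _).trans h18
  have h2 : 6 ∣ Nat.card (pOm G) := hcH ▸ Subgroup.card_dvd_of_surjective f' hf'
  have h3 : Nat.card (pOm G) = 6 ∨ Nat.card (pOm G) = 18 := by
    have := Nat.le_of_dvd (by norm_num) h1
    generalize Nat.card (pOm G) = c at *
    interval_cases c <;> omega
  rw [hcH]
  rcases h3 with h | h <;> rw [h]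
  have a : (18 : ℕ) = 6 * 3 := rfl
  rw [a, Nat.factorization_mul (by norm_num) (by norm_num), Finsupp.add_apply,
    Nat.factorization_eq_zero_of_not_dvd (n := 3) (by norm_num), add_zero]

theorem hasSt_POmegaPlus (m : ℕ) (hm : 2 ≤ m) : HasSt p (POmega F (quadFormPlus m F)) := by
  obtain rfl | h3 : m = 2 ∨ 3 ≤ m := by omega
  · by_cases hF : 3 ≤ Fintype.card F
    · exact ((hasSt_PSL p 1).prod (hasSt_PSL p 1)).congr
        ((pOmegaEquiv (QPlus 2 F)).trans (nonempty_pOm_QPlus_two hF).some)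
    · have hF2 : Fintype.card F = 2 := by have := Fintype.one_lt_card (α := F); omega
      obtain rfl : p = 2 := by
        have := (CharP.cast_eq_zero_iff F p _).1 (FiniteField.cast_card_eq_zero F)
        rw [hF2] at this
        exact (Nat.prime_dvd_prime_iff_eq Fact.out Nat.prime_two).1 this
      have h2 : (2 : F) = 0 := by exact_mod_cast CharP.cast_eq_zero F 2
      obtain ⟨e⟩ := Cfsg.Agent.S0250.result hF2
      obtain ⟨φ, hφ⟩ := exists_hom_QPlus_two (F := F)
      let τ : O (QPlus 2 F) := refl (QPlus 2 F) (Sum.elim ![0, 1] ![0, 1])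
      have hτ : ∀ v, mat2 F (τ.1 v) = (mat2 F v)ᵀ := fun v => by
        rw [refl_apply, polar_QPlus, QPlus_apply, mat2_apply, mat2_apply]
        ext i j
        fin_cases i <;> fin_cases j <;> simp [Fin.sum_univ_two]
      have hinj : Function.Injective φ := by
        rw [injective_iff_map_eq_one]
        intro g hg
        rcases eq_or_of_fix_mat2 (g := g) (fun X => by
          rw [← mat2_elim X, ← hφ, hg]; rfl) with h | h
        · exact h
        · rw [h, neg_one_eq_one_SL h2]; rfl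
      have hc : Nat.card (O (QPlus 2 F)) = 72 := (card_O_QPlus hF2 1).trans (by simp)
      have : Finite (O (QPlus 2 F)) := Nat.finite_of_card_ne_zero (by omega)
      refine (hasSt_wreath e (hasSt_SL 2 1) φ hinj hc τ fun a b => ?_).congr
        (pOmegaEquiv (QPlus 2 F))
      rw [inv_eq_of_mul_eq_one_right (refl_mul_self _ : τ * τ = 1)]
      refine O_ext fun v => mat2_injective ?_
      rw [O_mul_apply, O_mul_apply, hτ, hφ, hτ, hφ]
      simp [Matrix.transpose_mul, Matrix.mul_assoc]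
  · obtain ⟨n, rfl⟩ : ∃ n, m = n + 2 := ⟨m - 2, by omega⟩
    have hn : 1 ≤ n := by omega
    exact hasSt_of_good (pomPlusSt_good F hn) (pomPlusSt_top F hn) (not_dvd_card_H_of_R3 (pomPlusSt_R3 F hn))

universe u in
theorem exists_qSplit' {F : Type u} [Field F] [Fintype F] {a b : F}
    (hab : ∀ z₁ z₂ : F, z₁ ^ 2 + a * z₁ * z₂ + b * z₂ ^ 2 = 0 → z₁ = 0 ∧ z₂ = 0) :
    ∃ (K : Type u) (_ : Field K) (_ : Fintype K) (e : F →+* K) (hK : Fintype.card K = Fintype.card F ^ 2) (ω : K),
      QSplit a b e (Uni.sig hK) ω := by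
  have := QuadExt.fact_of_aniso hab
  have := QuadExt.finiteQA (-b) a
  have := Fintype.ofFinite (QuadraticAlgebra F (-b) a)
  have hK := QuadExt.card_QA rfl (-b) a
  refine ⟨QuadraticAlgebra F (-b) a, inferInstance, this, algebraMap _ _, hK, QuadraticAlgebra.omega, Uni.sig_sig hK,
    fun x => ?_, ?_, ?_, ?_⟩
  · rw [Uni.sig_apply, QuadExt.pow_q_eq_iff rfl]
    exact ⟨fun h => ⟨x.re, QuadraticAlgebra.ext rfl h.symm⟩, by rintro ⟨y, rfl⟩; rfl⟩
  · rw [Uni.sig_apply, Ne, QuadExt.pow_q_eq_iff rfl]; simp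
  all_goals rw [Uni.sig_apply, ← QuadExt.star_eq_pow rfl]; ext <;> simp

theorem hasSt_POmegaMinus (m : ℕ) (hm : 1 ≤ m) {a b : F}
    (hab : ∀ z₁ z₂ : F, z₁ ^ 2 + a * z₁ * z₂ + b * z₂ ^ 2 = 0 → z₁ = 0 ∧ z₂ = 0) :
    HasSt p (POmega F (quadFormMinus m F a b)) := by
  obtain ⟨K, _, _, e, hK, ω, h⟩ := exists_qSplit' hab
  have : CharP K p := charP_of_injective_ringHom e.injective p
  let _ := e.toAlgebra
  obtain rfl | rfl | h3 : m = 1 ∨ m = 2 ∨ 3 ≤ m := by omega
  · exact (hasSt_PSL p 1).congr ((pOmegaEquiv (QMinus 1 F a b)).trans (nonempty_pOm_QMinus_one rfl hK hab).some)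
  · exact (hasSt_PSU p hK 3).congr ((pOmegaEquiv (QMinus 2 F a b)).trans (nonempty_pOm_QMinus_two rfl hK hab).some)
  · obtain ⟨n, rfl⟩ : ∃ n, m = n + 1 := ⟨m - 1, by omega⟩
    have hn : 1 ≤ n := by omega
    obtain ⟨j, hj, -, hM⟩ := h.exists_pemb hn (by omega)
    exact hasSt_of_tw hM (h.pst_good hn) hj (not_dvd_card_H_of_R3 (h.pst_R3 hn))

end Classical

end CL.ClSt
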