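import Mathlib
import Cfsg.Agent.CLAS.ElusL6
import Cfsg.Agent.CLAS.Elus7

/-! Conjugacy classes of elements of prime order in projective linear and unitary groups. -/

set_option autoImplicit false
set_option linter.unusedSectionVars false

namespace CL.GLnProj

open Matrix Polynomial CL.GLn CL.Elus CL.ElusL

theorem card_classes_of_rel {Γ ι : Type*} [Group Γ] (P : Γ → Prop) (R : ι → Γ → Prop)
    (h0 : ∀ i, ∃ a, R i a) (hP : ∀ i a, R i a → P a)
    (h1 : ∀ i j a b, R i a → R j b → (IsConj a b ↔ i = j)) (h2 : ∀ a, P a → ∃ i, R i a) :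
    Nat.card {C : ConjClasses Γ // ∃ g, ConjClasses.mk g = C ∧ P g} = Nat.card ι := by
  choose s hs using h0
  refine (Nat.card_congr (Equiv.ofBijective
    (fun i => ⟨ConjClasses.mk (s i), s i, rfl, hP _ _ (hs i)⟩) ⟨fun i j h => ?_, ?_⟩)).symm
  · exact (h1 _ _ _ _ (hs i) (hs j)).1 (ConjClasses.mk_eq_mk_iff_isConj.1 (congrArg Subtype.val h))
  · rintro ⟨_, g, rfl, hg⟩
    obtain ⟨i, hi⟩ := h2 g hg
    exact ⟨i, Subtype.ext (ConjClasses.mk_eq_mk_iff_isConj.2 ((h1 _ _ _ _ (hs i) hi).2 rfl))⟩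

variable {r n : ℕ} [Fact r.Prime]

/-- Multisets of exponents. -/
abbrev Ex (r n : ℕ) : Type := {M : Multiset (ZMod r) // M.card = n}

instance : AddAction (ZMod r) (Ex r n) where
  vadd t M := ⟨M.1.map (t + ·), by rw [Multiset.card_map, M.2]⟩
  zero_vadd M := Subtype.ext (show M.1.map (0 + ·) = M.1 by simp)
  add_vadd s t M := Subtype.ext (show M.1.map (s + t + ·) = (M.1.map (t + ·)).map (s + ·) by
    simp [add_assoc])

theorem vadd_val (t : ZMod r) (M : Ex r n) : (t +ᵥ M).1 = M.1.map (t + ·) := rfl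

instance : Finite (Ex r n) := inferInstanceAs (Finite (Sym (ZMod r) n))

theorem card_Ex : Nat.card (Ex r n) = (n + r - 1).choose (r - 1) := by
  have := (Fact.out : r.Prime).pos
  rw [show Nat.card (Ex r n) = Nat.card (Sym (ZMod r) n) from rfl, Nat.card_eq_fintype_card,
    Sym.card_sym_eq_choose, ZMod.card, add_comm r]
  exact Nat.choose_symm_of_eq_add (by omega)

theorem card_fixedBy {t : ZMod r} (ht : t ≠ 0) :
    Nat.card (AddAction.fixedBy (Ex r n) t) = if r ∣ n then 1 else 0 := by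
  have h1 : ∀ M : AddAction.fixedBy (Ex r n) t, M.1.1 = M.1.1.count 0 • Finset.univ.val := fun M => by
    have h2 : ∀ (k : ℕ) (s : ZMod r), M.1.1.count (k * t + s) = M.1.1.count s := fun k => by
      induction k with
      | zero => simp
      | succ k ih =>
        intro s
        rw [← ih s, Nat.cast_succ, add_mul, one_mul, add_right_comm, add_comm _ t]
        conv_lhs => rw [← congrArg Subtype.val M.2, vadd_val]
        exact Multiset.count_map_eq_count' _ _ (add_right_injective t) _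
    ext s
    have := h2 (s / t).val 0
    simp only [ZMod.natCast_val, ZMod.cast_id', id_eq, add_zero, div_mul_cancel₀ s ht] at this
    simp [this]
  have h2 : ∀ M : AddAction.fixedBy (Ex r n) t, n = M.1.1.count 0 * r := fun M => by
    simpa using M.1.2.symm.trans (congrArg Multiset.card (h1 M))
  split_ifs with h
  · obtain ⟨k, rfl⟩ := h
    refine Nat.card_eq_one_iff_unique.2 ⟨⟨fun M N => Subtype.ext (Subtype.ext ?_)⟩,
      ⟨⟨⟨k • Finset.univ.val, by simp [mul_comm]⟩, Subtype.ext ?_⟩⟩⟩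
    · rw [h1 M, h1 N, Nat.eq_of_mul_eq_mul_right (Fact.out : r.Prime).pos ((h2 M).symm.trans (h2 N))]
    · rw [vadd_val, Multiset.map_nsmul]
      exact congrArg _ (Multiset.map_univ_val_equiv (Equiv.addLeft t))
  · exact Nat.card_eq_zero.2 (Or.inl ⟨fun M => h ⟨_, (h2 M).trans (mul_comm _ _)⟩⟩)

/-- Orbits of multisets of exponents. -/
abbrev Orb (r n : ℕ) [Fact r.Prime] : Type := Quotient (AddAction.orbitRel (ZMod r) (Ex r n))

theorem card_Orb : Nat.card (Orb r n) * r =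
    (n + r - 1).choose (r - 1) + (r - 1) * if r ∣ n then 1 else 0 := by
  classical
  have := Fintype.ofFinite (Orb r n)
  have : ∀ t : ZMod r, Fintype (AddAction.fixedBy (Ex r n) t) := fun _ => Fintype.ofFinite _
  have h := AddAction.sum_card_fixedBy_eq_card_orbits_mul_card_addGroup (ZMod r) (Ex r n)
  rw [ZMod.card, ← Finset.add_sum_erase _ _ (Finset.mem_univ 0), ← Nat.card_eq_fintype_card,
    ← Nat.card_eq_fintype_card, Finset.sum_congr rfl fun t ht => Nat.card_eq_fintype_card.symm.trans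
      (card_fixedBy (Finset.ne_of_mem_erase ht))] at h
  rw [← h, AddAction.fixedBy_zero_eq_univ, Nat.card_univ, card_Ex]
  simp

variable {K : Type*} [Field K] [Fintype K] {ι : Type} [Fintype ι] [DecidableEq ι] {G : Type*}
  [Group G] (φ : G →* Matrix ι ι K)

local notation "𝕂" => AlgebraicClosure K
local notation "ι₀" => algebraMap K (AlgebraicClosure K)

/-- The scalars in the image. -/
def scal : Subgroup Kˣ where
  carrier := {c | ∃ g, φ g = (c : K) • 1}
  one_mem' := ⟨1, by simp⟩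
  mul_mem' := fun ⟨g, hg⟩ ⟨k, hk⟩ => ⟨g * k, by simp [hg, hk, smul_smul, mul_comm]⟩
  inv_mem' := fun {c} ⟨g, hg⟩ => ⟨g⁻¹, by
    have := φ.map_mul g g⁻¹
    rw [mul_inv_cancel, map_one, hg, Matrix.smul_mul, one_mul] at this
    rw [this, smul_smul, Units.inv_mul, one_smul]⟩

theorem det_ne_zero (g : G) : (φ g).det ≠ 0 :=
  ((isUnit_iff_isUnit_det _).1 ((Group.isUnit g).map φ)).ne_zero

variable {φ} [Nonempty ι] (hZ : ∀ g, g ∈ Subgroup.center G ↔ ∃ c : K, φ g = c • 1)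
  (hc : ∀ g k, IsConj (φ g) (φ k) → IsConj g k)

theorem exists_scal {g : G} {c : K} (h : φ g = c • 1) : ∃ s : scal φ, ((s : Kˣ) : K) = c :=
  ⟨⟨Units.mk0 c (ne_zero_of_pow_eq (r := 1) (det_ne_zero φ g) (by rwa [pow_one])), g, h⟩, rfl⟩

include hZ hc in
theorem isConj_mk_iff (g k : G) : IsConj (g : G ⧸ Subgroup.center G) k ↔
    ∃ s : scal φ, IsConj (φ g) (((s : Kˣ) : K) • φ k) := by
  constructor
  · intro h
    obtain ⟨a, ha⟩ := isConj_iff.1 h
    obtain ⟨a, rfl⟩ := QuotientGroup.mk_surjective a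
    obtain ⟨c, h1⟩ := (hZ _).1 (QuotientGroup.eq.1 (show (k : G ⧸ Subgroup.center G) =
      (a * g * a⁻¹ : G) from ha.symm))
    obtain ⟨s, rfl⟩ := exists_scal h1
    refine ⟨s, (φ.map_isConj (isConj_iff.2 ⟨a, rfl⟩)).trans ?_⟩
    rw [← mul_inv_cancel_left k (a * g * a⁻¹), map_mul, h1, Matrix.mul_smul, mul_one]
  · rintro ⟨⟨s, z, hz⟩, h⟩
    have h1 : ((z * k : G) : G ⧸ Subgroup.center G) = k := by
      rw [QuotientGroup.mk_mul, (QuotientGroup.eq_one_iff z).2 ((hZ z).2 ⟨_, hz⟩), one_mul]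
    exact h1 ▸ (QuotientGroup.mk' _).map_isConj (hc g (z * k) (by simpa [hz] using h))

include hZ in
theorem orderOf_mk_eq_iff (g : G) : orderOf (g : G ⧸ Subgroup.center G) = r ↔
    (∃ c : K, φ g ^ r = c • 1) ∧ ∀ c : K, φ g ≠ c • 1 := by
  rw [orderOf_eq_prime_iff, ← QuotientGroup.mk_pow, QuotientGroup.eq_one_iff, Ne,
    QuotientGroup.eq_one_iff, hZ, hZ, map_pow, not_exists]

include hZ hc in
theorem card_classes (p : ℕ) [Fact p.Prime] [CharP K p] (hr : r ≠ p) {ζ : K}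
    (hζ : IsPrimitiveRoot ζ r) (hn : Fintype.card ι = n)
    (hD : ∀ a : ι → ZMod r, ∃ g, φ g = diagonal fun i => ζ ^ (a i).val)
    (hp : ∀ (b : K) (g : G), φ g = b ^ r • 1 → ∃ k, φ k = b • 1)
    (hB : r ∣ n → ∀ (c : K) (g : G), φ g = c • 1 → (∀ b, b ^ r ≠ c) → ∃ k, φ k ^ r = c • 1) :
    Nat.card {C : ConjClasses (G ⧸ Subgroup.center G) // ∃ g, ConjClasses.mk g = C ∧ orderOf g = r} =
      ((n + r - 1).choose (r - 1) - r - (if r ∣ n then 1 else 0)) / r +
        r * (if r ∣ n then 1 else 0) := by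
  classical
  have hr1 := (Fact.out : r.Prime).one_lt
  have hr0 := cast_ne_zero (F := K) p hr
  have hζ' := hζ.map_of_injective (algebraMap K 𝕂).injective
  have hinj : Function.Injective fun t : ZMod r => ι₀ ζ ^ t.val := fun _ _ => val_pow_inj hζ'
  have hS : ∀ t : ZMod r, ∃ s : scal φ, ((s : Kˣ) : K) = ζ ^ t.val := fun t => by
    obtain ⟨g, hg⟩ := hD fun _ => t
    exact exists_scal (hg.trans (smul_one_eq_diagonal _).symm)
  have hsm : ∀ {a b : K}, a • (1 : Matrix ι ι K) = b • 1 → a = b := fun h =>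
    smul_left_injective K one_ne_zero h
  have hev : ∀ (x : Matrix ι ι K) (t : ZMod r) (M : Ex r n),
      ev x = M.1.map (fun t => ι₀ ζ ^ t.val) →
      ev (ζ ^ t.val • x) = (t +ᵥ M).1.map fun t => ι₀ ζ ^ t.val := fun x t M h => by
    rw [ev_smul _ (val_pow_ne_zero hζ t), h, vadd_val, Multiset.map_map, Multiset.map_map]
    exact Multiset.map_congr rfl fun s _ => by simp [val_pow_add hζ']
  let N := (powMonoidHom r : scal φ →* scal φ).range
  have hN : ∀ s : scal φ, (s : scal φ ⧸ N) = 1 ↔ ∃ b : K, b ^ r = (s : Kˣ) := fun s => by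
    rw [QuotientGroup.eq_one_iff]
    refine ⟨fun ⟨b, hb⟩ => ⟨(b : Kˣ), by simp [← hb]⟩, fun ⟨b, hb⟩ => ?_⟩
    obtain ⟨g, hg⟩ := s.2
    obtain ⟨k, hk⟩ := hp b g (hb ▸ hg)
    obtain ⟨t, rfl⟩ := exists_scal hk
    exact ⟨t, Subtype.ext (Units.ext (by simpa using hb))⟩
  let M₀ : Ex r n := ⟨Multiset.replicate n 0, by simp⟩
  rw [card_classes_of_rel (ι := {o : Orb r n // o ≠ ⟦M₀⟧} ⊕ {x : scal φ ⧸ N // x ≠ 1 ∧ r ∣ n}) _
    (Sum.elim (fun o a => ∃ (g : G) (M : Ex r n), ↑g = a ∧ φ g ^ r = 1 ∧ ⟦M⟧ = o.1 ∧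
        ev (φ g) = M.1.map fun t => ι₀ ζ ^ t.val)
      fun x a => ∃ (g : G) (s : scal φ), ↑g = a ∧ φ g ^ r = ((s : Kˣ) : K) • 1 ∧ ↑s = x.1)]
  · have h1 : Nat.card {o : Orb r n // o ≠ ⟦M₀⟧} + 1 = Nat.card (Orb r n) :=
      Finite.card_option.symm.trans (Nat.card_congr (Equiv.optionSubtypeNe _))
    have h2 : Nat.card {x : scal φ ⧸ N // x ≠ 1} + 1 = r := by
      refine (Finite.card_option.symm.trans (Nat.card_congr (Equiv.optionSubtypeNe _))).trans ?_
      obtain ⟨s, hs⟩ := hS 1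
      refine (IsCyclic.index_powMonoidHom_range (scal φ) r).trans (Nat.gcd_eq_right ?_)
      rw [ZMod.val_one, pow_one] at hs
      rw [hζ.eq_orderOf, ← hs, orderOf_units, Subgroup.orderOf_coe]
      exact orderOf_dvd_natCard s
    have h3 := card_Orb (r := r) (n := n)
    rw [Nat.card_sum]
    split_ifs at h3 ⊢ with h
    · simp only [h, and_true]
      obtain ⟨O, hO⟩ : ∃ O, Nat.card {o : Orb r n // o ≠ ⟦M₀⟧} = O + 1 := by
        rcases h4 : Nat.card {o : Orb r n // o ≠ ⟦M₀⟧} with _ | O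
        · have h5 : r ≤ (n + r - 1).choose (r - 1) := by
            have : 0 < n := hn ▸ Fintype.card_pos
            have := Nat.choose_le_choose (r - 1) (show r - 1 + 1 ≤ n + r - 1 by omega)
            rw [Nat.choose_succ_self_right] at this
            omega
          rw [← h1, h4] at h3
          omega
        · exact ⟨O, rfl⟩
      rw [← h1, hO] at h3
      rw [hO, Nat.div_eq_of_eq_mul_left (k := O) (by omega) (by
        rw [add_mul, add_mul] at h3; omega)]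
      omega
    · simp only [h, and_false, Nat.card_of_isEmpty]
      rw [Nat.div_eq_of_eq_mul_left (k := Nat.card {o : Orb r n // o ≠ ⟦M₀⟧}) (by omega) (by
        rw [← h1, add_mul] at h3; omega)]
      rfl
  · rintro (⟨o, ho⟩ | ⟨x, hx, h⟩)
    · obtain ⟨M, rfl⟩ := o.exists_rep
      obtain ⟨a, ha⟩ := exists_fun_of_card (ι := ι) M.1 (M.2.trans hn.symm)
      obtain ⟨g, hg⟩ := hD a
      exact ⟨g, g, M, rfl, by simp [hg, diagonal_pow, funext_iff, val_pow_pow hζ], rfl, by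
        simp [hg, ev_diagonal, ← ha]⟩
    · obtain ⟨s, rfl⟩ := QuotientGroup.mk_surjective x
      obtain ⟨g, hg⟩ := s.2
      obtain ⟨k, hk⟩ := hB h _ g hg fun b hb => hx ((hN s).2 ⟨b, hb⟩)
      exact ⟨k, k, s, rfl, hk, rfl⟩
  · rintro (⟨o, ho⟩ | ⟨x, hx, h⟩) _
    · rintro ⟨g, M, rfl, h1, rfl, h2⟩
      refine (orderOf_mk_eq_iff hZ g).2 ⟨⟨1, by simpa⟩, fun c hc => ho ?_⟩
      rw [hc, _root_.smul_pow, one_pow, ← one_smul K 1] at h1
      obtain ⟨t, rfl⟩ := exists_val_eq hζ (hsm (by simpa using h1))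
      refine Quotient.sound ⟨t, Subtype.ext (Multiset.map_injective hinj ?_)⟩
      rw [← h2, hc]
      exact (hev 1 t M₀ (by simp [← diagonal_one, ev_diagonal, M₀, hn])).symm
    · rintro ⟨g, s, rfl, h1, rfl⟩
      exact (orderOf_mk_eq_iff hZ g).2 ⟨⟨_, h1⟩, fun c hc => hx ((hN s).2 ⟨c, hsm (by
        rw [← h1, hc, _root_.smul_pow, one_pow])⟩)⟩
  · have key : ∀ {g k : G} {a b : K} {s : scal φ}, IsConj (φ g) (((s : Kˣ) : K) • φ k) →
        φ g ^ r = a • 1 → φ k ^ r = b • 1 → a = ((s : Kˣ) : K) ^ r * b := fun h h1 h2 => hsm (by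
      rw [← pow_eq_of_isConj h h1, _root_.smul_pow, h2, smul_smul])
    rintro (⟨o, ho⟩ | ⟨x, hx, h⟩) (⟨o', ho'⟩ | ⟨x', hx', h'⟩) _ _
    · rintro ⟨g, M, rfl, h1, rfl, h2⟩ ⟨k, M', rfl, h3, rfl, h4⟩
      rw [isConj_mk_iff hZ hc, Sum.inl.injEq, Subtype.mk.injEq, Quotient.eq]
      constructor
      · rintro ⟨s, hs⟩
        obtain ⟨t, ht⟩ := exists_val_eq hζ ((mul_one _).symm.trans (key hs (a := 1) (by simpa)
          (by simpa)).symm)
        exact ⟨t, Subtype.ext (Multiset.map_injective hinj (by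
          rw [← h2, ev_eq_of_isConj hs, ← ht]; exact (hev _ t M' h4).symm))⟩
      · rintro ⟨t, rfl⟩
        obtain ⟨s, hs⟩ := hS t
        exact ⟨s, hs ▸ isConj_of_ev_inv hr h1 (by rw [_root_.smul_pow, val_pow_pow hζ, h3, one_smul])
          (h2.trans (hev _ t M' h4).symm)⟩
    · rintro ⟨g, M, rfl, h1, rfl, h2⟩ ⟨k, s', rfl, h3, rfl⟩
      refine iff_of_false (fun h => ?_) (by simp)
      obtain ⟨s, hs⟩ := (isConj_mk_iff hZ hc _ _).1 h
      refine hx' ((hN s').2 ⟨((s : Kˣ) : K)⁻¹, ?_⟩)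
      rw [inv_pow, inv_eq_of_mul_eq_one_right (key hs (a := 1) (by simpa) h3).symm]
    · rintro ⟨k, s', rfl, h3, rfl⟩ ⟨g, M, rfl, h1, rfl, h2⟩
      refine iff_of_false (fun h => ?_) (by simp)
      obtain ⟨s, hs⟩ := (isConj_mk_iff hZ hc _ _).1 h
      exact hx ((hN s').2 ⟨_, ((key hs h3 (b := 1) (by simpa)).trans (mul_one _)).symm⟩)
    · rintro ⟨g, s, rfl, h1, rfl⟩ ⟨k, s', rfl, h3, rfl⟩
      rw [isConj_mk_iff hZ hc, Sum.inr.injEq, Subtype.mk.injEq, eq_comm, QuotientGroup.eq]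
      constructor
      · rintro ⟨t, ht⟩
        exact ⟨t, Subtype.ext (Units.ext (by simp [key ht h1 h3]; field_simp))⟩
      · rintro ⟨t, ht⟩
        refine ⟨t, (isConj_iff_simil _ _).2 (SpU.simil_of_aeval_irreducible
          ((X_pow_sub_C_irreducible_iff_of_prime Fact.out).2 fun b hb => hx ((hN s).2 ⟨b, hb⟩))
          (aeval_X_pow_sub_C ((pow_eq_smul_iff _ _ _).1 h1))
          (aeval_X_pow_sub_C ((pow_eq_smul_iff _ _ _).1 ?_)) rfl)⟩
        rw [_root_.smul_pow, h3, smul_smul, eq_inv_mul_iff_mul_eq.1 ht |>.symm]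
        simp [mul_comm]
  · intro a ha
    obtain ⟨g, rfl⟩ := QuotientGroup.mk_surjective a
    obtain ⟨⟨c, h1⟩, h2⟩ := (orderOf_mk_eq_iff hZ g).1 ha
    obtain ⟨s, rfl⟩ := exists_scal ((map_pow φ g r).trans h1)
    by_cases h3 : (s : scal φ ⧸ N) = 1
    · obtain ⟨b, rfl⟩ := (QuotientGroup.eq_one_iff s).1 h3
      obtain ⟨z, hz⟩ := b⁻¹.2
      have h4 : φ (z * g) ^ r = 1 := by
        rw [map_mul, hz, Matrix.smul_mul, one_mul, _root_.smul_pow, h1, smul_smul]; simp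
      obtain ⟨M, h5, -, h6⟩ := exists_ev_eq hζ h4
      refine ⟨Sum.inl ⟨⟦⟨M, h5.trans hn⟩⟧, fun h7 => ?_⟩, z * g, _, by
        rw [QuotientGroup.mk_mul, (QuotientGroup.eq_one_iff z).2 ((hZ z).2 ⟨_, hz⟩), one_mul],
        h4, rfl, h6⟩
      obtain ⟨t, ht⟩ := Quotient.exact h7
      obtain ⟨a, h8, h9⟩ := exists_mem_ev_ne (isSemisimple_toLin'_of_pow_eq_one hr0 h4)
        (c := ζ ^ t.val) fun h => h2 (((b : Kˣ) : K) * ζ ^ t.val) (by
          rw [← smul_smul, ← h, map_mul, hz, Matrix.smul_mul, smul_smul]; simp)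
      rw [h6, ← show _ = M from congrArg Subtype.val ht] at h8
      simp [vadd_val, M₀] at h8
      exact h9 (by simp [Multiset.eq_of_mem_replicate h8])
    · refine ⟨Sum.inr ⟨s, h3, ?_⟩, g, s, rfl, h1, rfl⟩
      have h4 := (X_pow_sub_C_irreducible_iff_of_prime Fact.out).2 fun b hb => h3 ((hN s).2 ⟨b, hb⟩)
      have := (hom_top_of_irreducible ((pow_eq_smul_iff _ _ _).1 h1) h4).dvd
        (ss_of_pow_eq p hr (det_ne_zero φ g) h1) (inv_top _)
      simpa [hn] using this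

end CL.GLnProj
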