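import Mathlib
import Cfsg.Agent.KSG.SpUAdj
import Cfsg.Agent.KSG.SpUUnitary
import Cfsg.Agent.KSG.GLnCentJordan
import Cfsg.Agent.CLAS.UniBasic

/-! Orders of unitary groups of finite algebras; centralisers of unipotent elements of `GU_n(q)`. -/

set_option autoImplicit false
set_option linter.unusedSectionVars false

namespace CL.GUCent

open Module Polynomial CL.GLn CL.SpU CL.SqField CL.Witt CL.Uni

theorem card_preimage {A B : Type*} [AddCommGroup A] [AddCommGroup B] (f : A →+ B)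
    (hf : Function.Surjective f) (P : B → Prop) :
    Nat.card {a // P (f a)} * Nat.card B = Nat.card A * Nat.card {b // P b} := by
  obtain ⟨σ, hσ⟩ := hf.hasRightInverse
  have : ∀ P : B → Prop, Nat.card {a // P (f a)} = Nat.card f.ker * Nat.card {b // P b} := fun P => by
    rw [← Nat.card_prod]
    exact Nat.card_congr
      { toFun := fun v => ⟨⟨v.1 - σ (f v.1), by simp [hσ (f v.1)]⟩, ⟨f v.1, v.2⟩⟩
        invFun := fun x => ⟨x.1.1 + σ x.2.1, by simpa [hσ x.2.1, show f x.1.1 = 0 from x.1.2] using x.2.2⟩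
        left_inv := fun v => by simp
        right_inv := fun x => by simp [hσ x.2.1, show f x.1.1 = 0 from x.1.2] }
  have h1 := this fun _ => True
  simp only [Nat.card_congr (Equiv.subtypeUnivEquiv fun _ => trivial)] at h1
  rw [this, h1]; ring

theorem card_isUnit {R : Type*} [Ring R] (τ : R →+ R) :
    Nat.card {s : τ.eqLocus (.id R) // IsUnit s.1} = Nat.card {s // IsUnit s ∧ τ s = s} :=
  Nat.card_congr ⟨fun s => ⟨s.1, s.2, s.1.2⟩, fun s => ⟨⟨s.1, s.2.2⟩, s.2.1⟩, fun _ => rfl, fun _ => rfl⟩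

variable {K : Type*} [Field K] [Fintype K] {q : ℕ} (hK : Fintype.card K = q ^ 2)
  {R S : Type*} [Ring R] [Algebra K R] [Finite R] [Ring S] [Algebra K S] [Finite S]
  {τ : R →+ R} {τ' : S →+ S}

include hK

theorem card_uni_mul (h : IsAntiInvol τ) (hs : ∀ (c : K) x, τ (c • x) = c ^ q • τ x) :
    Nat.card {x // τ x * x = 1} * Nat.card {s // IsUnit s ∧ τ s = s} = Nat.card {x : R // IsUnit x} := by
  obtain ⟨θ, hθ⟩ := exists_pow_q_ne hK
  have h1 : τ (algebraMap K R θ) = algebraMap K R (θ ^ q) := by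
    simp [Algebra.algebraMap_eq_smul_one, hs, h.map_one]
  choose c h2 h3 _ using fun s : {s // IsUnit s ∧ τ s = s} => h.exists_norm (l := algebraMap K R θ)
    (by rw [h1, ← map_sub]; exact (sub_ne_zero.2 hθ.symm).isUnit.map _) (Algebra.commutes _ _)
    (Algebra.commutes _ _).symm s.2.1 s.2.2
  have h4 : ∀ (w : {x // τ x * x = 1}) s, τ (w.1 * c s) * (w.1 * c s) = s := fun w s => by
    rw [h.map_mul, mul_assoc, ← mul_assoc (τ w.1), w.2, one_mul, h3]
  rw [← Nat.card_prod]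
  refine Nat.card_congr (.ofBijective (fun x => ⟨x.1.1 * c x.2, (IsUnit.of_mul_eq_one_right _ x.1.2).mul
    (h2 _)⟩) ⟨fun ⟨w, s⟩ ⟨w', s'⟩ h5 => ?_, fun x => ?_⟩)
  · have h5 : w.1 * c s = w'.1 * c s' := congrArg Subtype.val h5
    obtain rfl : s = s' := Subtype.ext (by rw [← h4 w, h5, h4])
    rw [Subtype.ext ((h2 s).mul_right_cancel h5)]
  · let s : {s // IsUnit s ∧ τ s = s} := ⟨τ x.1 * x.1, (h.isUnit_map x.2).mul x.2, by
      rw [h.map_mul, h.invol]⟩
    refine ⟨(⟨x.1 * ↑(h2 s).unit⁻¹, ?_⟩, s), Subtype.ext (by simp [mul_assoc])⟩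
    rw [h.map_mul, mul_assoc, ← mul_assoc (τ x.1), show τ x.1 * x.1 = _ from (h3 s).symm, mul_assoc,
      IsUnit.mul_val_inv, mul_one, ← h.map_mul, IsUnit.mul_val_inv, h.map_one]

theorem card_herm (h : IsAntiInvol τ) (hs : ∀ (c : K) x, τ (c • x) = c ^ q • τ x) :
    Nat.card (τ.eqLocus (.id R)) = q ^ finrank K R := by
  obtain ⟨θ, hθ⟩ := exists_pow_q_ne hK
  have h0 := sub_ne_zero.2 hθ
  refine Nat.pow_left_injective two_ne_zero ?_
  change _ ^ 2 = _ ^ 2
  rw [← pow_mul, mul_comm, pow_mul, ← hK, ← Nat.card_eq_fintype_card, ← Module.natCard_eq_pow_finrank, sq,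
    ← Nat.card_prod]
  refine Nat.card_congr (.ofBijective (((AddSubgroup.subtype _).coprod ((DistribSMul.toAddMonoidHom R θ).comp
    (AddSubgroup.subtype _)))) ⟨(injective_iff_map_eq_zero _).2 fun ⟨a, b⟩ h1 => ?_, fun x => ?_⟩)
  · have h2 : a.1 + θ • b.1 = 0 := h1
    have h3 := congrArg τ h2
    rw [map_add, hs, show τ a.1 = a from a.2, show τ b.1 = b from b.2, map_zero, ← h2, add_right_inj,
      ← sub_eq_zero, ← sub_smul, smul_eq_zero_iff_right h0] at h3
    simp_all
  · have h1 : τ ((θ ^ q - θ)⁻¹ • (τ x - x)) = (θ ^ q - θ)⁻¹ • (τ x - x) := by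
      rw [hs, map_sub, h.invol, inv_pow, sub_pow_q hK, pow_q_pow_q hK, ← neg_sub, inv_neg, neg_smul,
        ← smul_neg, neg_sub]
    refine ⟨(⟨x - θ • (θ ^ q - θ)⁻¹ • (τ x - x), ?_⟩, ⟨_, h1⟩), sub_add_cancel _ _⟩
    change τ _ = _
    rw [map_sub, hs, h1, AddMonoidHom.id_apply, sub_eq_sub_iff_sub_eq_sub, ← sub_smul, smul_inv_smul₀ h0]

theorem card_uni_eq (h : IsAntiInvol τ) (hs : ∀ (c : K) x, τ (c • x) = c ^ q • τ x)
    (h' : IsAntiInvol τ') (hs' : ∀ (c : K) x, τ' (c • x) = c ^ q • τ' x) (Θ : R →ₗ[K] S)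
    (h1 : Function.Surjective Θ) (h2 : ∀ x, IsUnit (Θ x) ↔ IsUnit x) (h3 : ∀ x, Θ (τ x) = τ' (Θ x)) :
    Nat.card {x // τ x * x = 1} * q ^ finrank K S = q ^ finrank K R * Nat.card {x // τ' x * x = 1} := by
  have h4 := card_preimage Θ.toAddMonoidHom h1 IsUnit
  have h5 := card_preimage (A := τ.eqLocus (.id R)) (B := τ'.eqLocus (.id S))
    ((Θ.toAddMonoidHom.comp (AddSubgroup.subtype _)).codRestrict _ fun x =>
      (h3 x).symm.trans (congrArg Θ x.2)) (fun s => ?_) fun s => IsUnit s.1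
  swap
  · obtain ⟨x, hx⟩ := h1 s
    obtain ⟨θ, hθ⟩ := exists_trace_eq hK (one_pow q)
    refine ⟨⟨θ • x + τ (θ • x), by change τ _ = _; rw [map_add, h.invol, add_comm]; rfl⟩, Subtype.ext ?_⟩
    change Θ (_ + _) = _
    rw [map_add, h3, map_smul, hx, hs', show τ' s.1 = s from s.2, ← add_smul, hθ, one_smul]
  have h6 := card_uni_mul hK h hs
  have h7 := card_uni_mul hK h' hs'
  have h8 : 0 < Nat.card {s // IsUnit s ∧ τ' s = s} :=
    Nat.card_pos_iff.2 ⟨⟨⟨1, isUnit_one, h'.map_one⟩⟩, inferInstance⟩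
  change Nat.card {x // IsUnit (Θ x)} * _ = _ at h4
  change Nat.card {x : τ.eqLocus _ // IsUnit (Θ x)} * _ = _ at h5
  simp only [h2] at h4 h5
  rw [card_herm hK h hs, card_herm hK h' hs', card_isUnit, card_isUnit] at h5
  rw [← h6, ← h7, Module.natCard_eq_pow_finrank (K := K) (V := S), Module.natCard_eq_pow_finrank (K := K) (V := R),
    Nat.card_eq_fintype_card (α := K), hK, ← pow_mul, ← pow_mul, mul_comm 2, mul_comm 2, pow_mul,
    pow_mul] at h4
  refine Nat.eq_of_mul_eq_mul_left (mul_pos h8 (pow_pos (q_ne_zero hK).bot_lt (finrank K R))) ?_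
  zify at h4 h5 ⊢
  linear_combination h4 - (Nat.card {x // τ x * x = 1} : ℤ) * q ^ finrank K S * h5

theorem card_unitary (ι : Type*) [Fintype ι] [DecidableEq ι] :
    Nat.card {x : Matrix ι ι K // ct hK x * x = 1} = guOrder q (Fintype.card ι) := by
  let e := Matrix.reindexAlgEquiv K K (Fintype.equivFin ι)
  rw [← card_GU hK, Nat.card_congr (e.toEquiv.subtypeEquiv (q := fun x => ct hK x * x = 1) fun x => by
    rw [← e.injective.eq_iff, map_mul, map_one]; rfl)]
  exact Nat.card_congr ⟨fun x => mkGU hK x.1 x.2, fun g => ⟨_, ct_mul_GU hK g⟩, fun _ => rfl,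
    fun _ => Subtype.ext (Units.ext rfl)⟩

variable {ι : Type*} [Fintype ι] [DecidableEq ι] {d : ι → ℕ} (hd : ∀ k, 0 < d k)

omit hK in
theorem topA_eq_zero {j : ℕ} {v : ∀ k, AdjoinRoot ((X - C (1 : K)) ^ d k)}
    (h : aeval (model fun k => (X - C (1 : K)) ^ d k) ((X - C (1 : K)) ^ j) v = 0) {l : ι}
    (hl : j < d l) : topA 1 hd v l = 0 := by
  have h2 := congrFun h l
  rw [aeval_model_apply] at h2
  by_contra h3
  have h5 := ((isUnit_iff_evA_ne_zero 1 (hd l) _).2 h3).mul_left_eq_zero.1 h2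
  rw [AdjoinRoot.mk_eq_zero, pow_dvd_pow_iff (X_sub_C_ne_zero 1) (not_isUnit_X_sub_C 1)] at h5
  omega

include hd in
theorem exists_gram {f : Form (HT hK) (∀ k, AdjoinRoot ((X - C (1 : K)) ^ d k))}
    [FiniteDimensional K (∀ k, AdjoinRoot ((X - C (1 : K)) ^ d k))] (hf : f.Nondeg)
    (hA : adj hf (model fun k => (X - C (1 : K)) ^ d k) * model (fun k => (X - C (1 : K)) ^ d k) = 1)
    (i : ℕ) : ∃ G : Matrix {k // d k = i} {k // d k = i} K, IsUnit G ∧ ct hK G = G ∧
      ∀ x, Commute x (model fun k => (X - C (1 : K)) ^ d k) →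
        G * (topMat 1 hd (adj hf x)).toSquareBlock d i = ct hK ((topMat 1 hd x).toSquareBlock d i) * G := by
  rcases i with _ | i
  · have : IsEmpty {k // d k = 0} := ⟨fun k => (hd k).ne' k.2⟩
    exact ⟨1, isUnit_one, Subsingleton.elim _ _, fun _ _ => Subsingleton.elim _ _⟩
  obtain ⟨θ, hθ⟩ := exists_pow_q_ne hK
  generalize hA' : (model fun k => (X - C (1 : K)) ^ d k) = A at hA ⊢
  have h0 : A * adj hf A = 1 := mul_eq_one_comm.1 hA
  have h1 : ∀ x, Commute x A → Commute x (adj hf A) := fun x hx => by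
    rw [Commute, SemiconjBy, ← one_mul (x * _), ← hA, mul_assoc, ← mul_assoc A, ← hx.eq, mul_assoc x, h0,
      mul_one]
  have h2 : ∀ x, Commute x A → Commute (adj hf x) A := fun x hx => by
    simpa [Commute, SemiconjBy, adj_mul, adj_adj, eq_comm] using congrArg (adj hf) (h1 x hx).eq
  have h3 : aeval A (X - C (1 : K)) = A - 1 := by simp
  obtain ⟨w, hw⟩ : IsUnit (θ • 1 - θ ^ q • adj hf A) := by
    refine isUnit_of_mul_isUnit_right (x := A) ?_
    rw [show A * _ = θ • (A - 1) + algebraMap K _ (θ - θ ^ q) by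
      simp [mul_sub, h0, smul_sub, Algebra.algebraMap_eq_smul_one, sub_smul]]
    refine IsNilpotent.isUnit_add_right_of_commute (IsNilpotent.smul ⟨∑ k, d k, ?_⟩ _)
      ((sub_ne_zero.2 hθ.symm).isUnit.map _) (Algebra.commutes _ _).symm
    rw [← h3, ← map_pow, ← hA', aeval_model_eq_zero_iff]
    exact fun k => pow_dvd_pow _ (Finset.single_le_sum (fun _ _ => Nat.zero_le _) (Finset.mem_univ k))
  obtain ⟨M, hM⟩ : ∃ M, M = w * (A - 1) := ⟨_, rfl⟩
  have h4 : adj hf M = M := by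
    simp [hM, hw, sub_mul, mul_sub, hA, adj_smul, adj_adj, adj_one, HT_σ, pow_q_pow_q hK]; abel
  have h5 : ∀ x, Commute x A → Commute x w := fun x hx =>
    hw ▸ ((Commute.one_right x).smul_right _).sub_right ((h1 x hx).smul_right _)
  have h6 : ∀ x, Commute x A → Commute x M := fun x hx =>
    hM ▸ (h5 x hx).mul_right (hx.sub_right (.one_right x))
  have h7 := (h5 _ ((Commute.refl A).sub_left (.one_left A))).symm
  have h8 : ∀ j v, (M ^ j) v = 0 ↔ aeval A ((X - C (1 : K)) ^ j) v = 0 := fun j v => by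
    rw [hM, h7.mul_pow, map_pow, h3, End.mul_apply, LinearMap.map_eq_zero_iff _
      ((End.isUnit_iff _).1 (w.isUnit.pow j)).1]
  have h9 : ∀ j k, d k ≤ j → (M ^ j) (Pi.single k 1) = 0 := fun j k h => by
    rw [h8, ← hA', ← single_mk_eq, AdjoinRoot.mk_eq_zero.2 (pow_dvd_pow _ h), Pi.single_zero]
  have h10 : ∀ v, topA 1 hd v = 0 ↔ ∃ u, v = M u := fun v => by
    rw [topA_eq_zero_iff, hA', h3, hM, h7.eq]
    exact ((End.isUnit_iff _).1 w.isUnit).2.exists
  have h11 : ∀ j x y, f.B ((M ^ j) x) y = f.B x ((M ^ j) y) := fun j x y => by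
    rw [← B_adj hf, adj_pow, h4]
  have h12 : ∀ v y, (M ^ (i + 1)) v = 0 → (M ^ (i + 1)) y = 0 → f.B y ((M ^ i) v) =
      ∑ k : {k // d k = i + 1}, f.B y ((M ^ i) (Pi.single k.1 1)) * topA 1 hd v k := fun v y hv hy => by
    obtain ⟨u, hu⟩ := (h10 (v - (∑ k, topA 1 hd v k • Pi.single k 1 :
      ∀ k, AdjoinRoot ((X - C (1 : K)) ^ d k)))).1 (by rw [map_sub, topA_sum, sub_self])
    rw [← Finset.sum_subtype (Finset.univ.filter fun k => d k = i + 1) (by simp) fun k =>
      f.B y ((M ^ i) (Pi.single k 1)) * topA 1 hd v k, Finset.sum_filter]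
    conv_lhs => rw [eq_add_of_sub_eq hu, map_add, ← End.mul_apply, ← pow_succ, map_add, ← h11, hy]
    simp only [map_zero, LinearMap.zero_apply, zero_add, map_sum, map_smul, smul_eq_mul]
    refine Finset.sum_congr rfl fun k _ => ?_
    split_ifs with h
    · exact mul_comm _ _
    · rcases le_or_gt (d k) i with h' | h'
      · simp [h9 i k h']
      · rw [topA_eq_zero hd (hA' ▸ (h8 _ _).1 hv) (by omega), zero_mul]
  have h13 : ∀ x y, f.B x y ^ q = f.B y x := fun x y => by rw [f.symm x y, HT_ε, one_mul, HT_σ]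
  let G : Matrix {k // d k = i + 1} {k // d k = i + 1} K :=
    .of fun l k => f.B (Pi.single l.1 1) ((M ^ i) (Pi.single k.1 1))
  have h14 : ct hK G = G := by ext l k; simp [ct_apply, G, h13, h11]
  have h15 : ∀ x, Commute x A → ∀ l k, (G * (topMat 1 hd x).toSquareBlock d (i + 1)) l k =
      f.B ((M ^ i) (Pi.single l.1 1)) (x (Pi.single k.1 1)) := fun x hx l k => by
    rw [h11, h12 _ _ (by rw [← End.mul_apply, ← ((h6 x hx).pow_right _).eq, End.mul_apply,
      h9 _ _ k.2.le, map_zero]) (h9 _ _ l.2.le)]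
    rfl
  refine ⟨G, Matrix.mulVec_injective_iff_isUnit.1 ((injective_iff_map_eq_zero G.mulVecLin).2 fun c hc => ?_),
    h14, fun x hx => ?_⟩
  · let y : ∀ k, AdjoinRoot ((X - C (1 : K)) ^ d k) := ∑ k, c k • Pi.single k.1 1
    have h16 : (M ^ (i + 1)) y = 0 := by
      simp only [y, map_sum, map_smul]
      exact Finset.sum_eq_zero fun k _ => by rw [h9 _ _ k.2.le, smul_zero]
    obtain ⟨z, hz⟩ : (M ^ i) y ∈ LinearMap.range (adj hf (M ^ (i + 1))) := by
      rw [← perp_ker, Form.mem_perp']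
      intro v hv
      rw [h11, h12 v y hv h16]
      refine Finset.sum_eq_zero fun k _ => mul_eq_zero_of_left ?_ _
      rw [← h13, h11, show f.B _ _ = 0 from Eq.trans ?_ (congrFun hc k), zero_pow_q hK]
      simp [y, G, Matrix.mulVec, dotProduct, mul_comm]
    rw [adj_pow, h4, pow_succ, End.mul_apply, eq_comm, ← sub_eq_zero, ← map_sub, h8, ← hA'] at hz
    ext k
    have := topA_eq_zero hd hz (l := k) (by omega)
    rw [map_sub, (h10 _).2 ⟨z, rfl⟩] at this
    simpa [y, topA_single, Finset.sum_apply, Pi.single_apply, Subtype.val_inj] using this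
  · rw [← h14, ← ct_mul, h14]
    ext l k
    rw [ct_apply, h15 _ (h2 x hx), h15 x hx, h13, B_adj', ← End.mul_apply, ((h6 x hx).pow_right _).eq,
      End.mul_apply, h11]

include hd in
theorem card_cent_model {f : Form (HT hK) (∀ k, AdjoinRoot ((X - C (1 : K)) ^ d k))}
    [FiniteDimensional K (∀ k, AdjoinRoot ((X - C (1 : K)) ^ d k))] (hf : f.Nondeg)
    (hA : adj hf (model fun k => (X - C (1 : K)) ^ d k) * model (fun k => (X - C (1 : K)) ^ d k) = 1)
    {N : ℕ} (hN : ∀ k, d k ≤ N) :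
    Nat.card {x // adj hf x * x = 1 ∧ Commute x (model fun k => (X - C (1 : K)) ^ d k)} *
      q ^ (∑ i ∈ Finset.range (N + 1), (Finset.univ.filter fun k => d k = i).card ^ 2) =
    q ^ (∑ k, ∑ l, min (d k) (d l)) *
      ∏ i ∈ Finset.range (N + 1), guOrder q (Finset.univ.filter fun k => d k = i).card := by
  choose G h1 h2 h3 using exists_gram hK hd hf hA
  choose c h4 h5 _ using fun i => exists_ct_mul_self hK (h1 i) (h2 i)
  have hne : ∀ k, (X - C 1 : K[X]) ^ d k ≠ 0 := fun k => pow_ne_zero _ (X_sub_C_ne_zero 1)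
  have h6 := finrank_homSp_model (fun k => (X - C (1 : K)) ^ d k) (model fun k => (X - C (1 : K)) ^ d k)
  simp only [kd_model hne, kd_cyc_pow_pow (X_sub_C_ne_zero _), natDegree_X_sub_C, mul_one] at h6
  have := Module.finite_of_finite K (M := End K (∀ k, AdjoinRoot ((X - C (1 : K)) ^ d k)))
  set A := model fun k => (X - C (1 : K)) ^ d k
  let R := Subalgebra.centralizer K {A}
  have h7 : ∀ x, x ∈ R ↔ Commute x A := fun x => by simp [R, Subalgebra.mem_centralizer_iff, commute_iff_eq, eq_comm]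
  let τ : R →+ R := ((adj hf).comp R.val.toAddMonoidHom).codRestrict R fun x => (h7 _).2 (by
    have h0 : A * adj hf A = 1 := mul_eq_one_comm.1 hA
    change adj hf x * A = A * adj hf x
    rw [← one_mul (_ * A), ← h0, mul_assoc, ← mul_assoc _ _ A, ← adj_mul, ((h7 _).1 x.2).eq, adj_mul,
      mul_assoc, hA, mul_one])
  let τ' := (AddMonoidHom.pi fun i : Fin (N + 1) => (ct hK).comp (Pi.evalAddMonoidHom
    (fun i : Fin (N + 1) => Matrix {k // d k = i} {k // d k = i} K) i))
  let Θ : R →ₗ[K] ∀ i : Fin (N + 1), Matrix {k // d k = i} {k // d k = i} K :=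
    { toFun := fun φ i => c i * (topMat 1 hd φ.1).toSquareBlock d i * (c i)⁻¹
      map_add' := fun φ ψ => funext fun i => by
        rw [Pi.add_apply, ← add_mul, ← mul_add]; congr 2; ext; simp [topMat, Matrix.toSquareBlock_def]
      map_smul' := fun a φ => funext fun i => by
        rw [Pi.smul_apply, ← smul_mul_assoc, ← mul_smul_comm]; congr 2; ext
        simp [topMat, Matrix.toSquareBlock_def] }
  have h8 := fun i => (Matrix.isUnit_iff_isUnit_det _).1 (h4 i)
  have h9 := card_uni_eq hK (τ := τ) (τ' := τ') ⟨fun x y => Subtype.ext (adj_mul hf x.1 y.1),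
    fun x => Subtype.ext (adj_adj hf x.1)⟩ (fun a x => Subtype.ext (adj_smul hf a x.1))
    ⟨fun x y => funext fun i => ct_mul hK (x i) (y i), fun x => funext fun i => ct_ct hK (x i)⟩
    (fun a x => funext fun i => ct_smul hK a (x i)) Θ (fun B => ?_) (fun φ => ?_)
    fun φ => funext fun i => ?_
  · rw [show finrank K R = _ from (LinearEquiv.ofEq R.toSubmodule _ (Submodule.ext fun x =>
      (h7 x).trans mem_homSp_self.symm)).finrank_eq.trans h6, Module.finrank_pi_fintype] at h9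
    rw [Nat.card_congr ((Equiv.subtypeEquivRight (p := fun x => τ' x * x = 1) fun _ => funext_iff).trans
      (Equiv.subtypePiEquivPi (β := fun i : Fin (N + 1) => Matrix {k // d k = i} {k // d k = i} K)
        (p := fun _ B => ct hK B * B = 1))), Nat.card_pi] at h9
    simp only [card_unitary, Module.finrank_matrix, Fintype.card_subtype, finrank_self, mul_one, ← sq] at h9
    rw [Finset.sum_range, Finset.prod_range, ← h9]
    exact congrArg (· * _) (Nat.card_congr ⟨fun x => ⟨⟨x.1, (h7 _).2 x.2.2⟩, Subtype.ext x.2.1⟩,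
      fun x => ⟨x.1.1, congrArg Subtype.val x.2, (h7 _).1 x.1.2⟩, fun _ => rfl, fun _ => rfl⟩)
  · let P : ι → ι → K := fun l k => if h : d l = d k then
      ((c (d k))⁻¹ * B ⟨d k, Nat.lt_succ_of_le (hN k)⟩ * c (d k) :) ⟨l, h⟩ ⟨k, rfl⟩ else 0
    obtain ⟨φ, h1, h2⟩ := exists_hom_model (fun k => (X - C 1 : K[X]) ^ d k) A
      (fun k => ∑ l, P l k • Pi.single l 1) fun k => by
        rw [map_sum]
        refine Finset.sum_eq_zero fun l _ => ?_
        by_cases h : d l = d k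
        · rw [map_smul, ← single_mk_eq, AdjoinRoot.mk_eq_zero.2 (by rw [h]), Pi.single_zero,
            smul_zero]
        · simp [P, h]
    refine ⟨⟨φ, (h7 _).2 (mem_homSp_self.1 h1)⟩, funext fun i => ?_⟩
    change c i * (topMat 1 hd φ).toSquareBlock d i * _ = _
    rw [show (topMat 1 hd φ).toSquareBlock d i = (c i)⁻¹ * B i * c i from ?_]
    · rw [← mul_assoc, ← mul_assoc, Matrix.mul_nonsing_inv _ (h8 i), one_mul,
        Matrix.mul_nonsing_inv_cancel_right _ _ (h8 i)]
    obtain ⟨i, hi⟩ := i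
    ext ⟨l, hl⟩ ⟨k, hk⟩
    obtain rfl : d k = i := hk
    change topA 1 hd (φ (Pi.single k 1)) l = _
    rw [h2, topA_sum]
    exact dif_pos hl
  · have h10 := mem_homSp_self.2 ((h7 _).1 φ.2)
    rw [← isOfFinOrder_iff_isUnit (x := φ), ← Function.Injective.isOfFinOrder_iff (f := R.toSubmonoid.subtype)
      Subtype.val_injective,
      isOfFinOrder_iff_isUnit, show R.toSubmonoid.subtype φ = φ.1 from rfl, isUnit_iff_det_topMat 1 hd h10,
      (blockTriangular_topMat 1 hd h10).det, Finset.prod_ne_zero_iff, Pi.isUnit_iff]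
    simp only [Θ, LinearMap.coe_mk, AddHom.coe_mk, Matrix.isUnit_iff_isUnit_det, Matrix.det_conj (h4 _),
      isUnit_iff_ne_zero]
    refine ⟨fun h i hi => ?_, fun h i => ?_⟩
    · obtain ⟨k, -, rfl⟩ := Finset.mem_image.1 hi
      exact h ⟨d k, Nat.lt_succ_of_le (hN k)⟩
    · by_cases hi : (i : ℕ) ∈ Finset.univ.image d
      · exact h i hi
      · have : IsEmpty {k // d k = i} := ⟨fun k => hi (Finset.mem_image.2 ⟨k, Finset.mem_univ _, k.2⟩)⟩
        simp
  · change c i * (topMat 1 hd (adj hf φ)).toSquareBlock d i * _ = ct hK (c i * _ * _)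
    refine ((isAntiInvol_ct hK).isUnit_map (h4 i)).mul_left_cancel ?_
    rw [← mul_assoc, ← mul_assoc, h5, h3 _ _ ((h7 _).1 φ.2), ← h5, ← ct_mul, ← mul_assoc,
      Matrix.mul_nonsing_inv_cancel_right _ _ (h8 i), Matrix.nonsing_inv_mul_cancel_right _ _ (h8 i), ct_mul]

end CL.GUCent
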