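import Cfsg.Agent.KSG.GenTwo
import Cfsg.Agent.CHEV.CommChk
import Cfsg.Agent.CHEV.Core
import Cfsg.Agent.CHEV.GlueBN

/-!
The tabulated Chevalley groups over finite fields are generated by two elements.
-/

set_option autoImplicit false
set_option linter.unusedSectionVars false

namespace CL.Chev

open Cfsg.Lie

namespace Cert

variable (C : Cert) (n l : ℕ)

/-- the action of the Coxeter element -/
def coxN (s : ℕ) : ℕ := (List.range l).foldr C.rfs s

/-- `k` is the image of `b` under the reflection in `a` -/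
def reflOK (a b k : ℕ) : Bool := allLt l fun i => ieq (C.co k i) (C.co b i - C.pairF l a b * C.co a i)

/-- `r` is a long root -/
def longB (r : ℕ) : Bool := allLt n fun k => Nat.ble (C.len k) (C.len r)

/-- check of a derivation of the simple roots and their negatives -/
def genRun (ex : List ℕ → ℕ → ℕ → Bool) : List (ℕ × ℕ × ℕ) → List ℕ → Bool
  | [], K => allLt l fun i => lmem (C.smp i) K && lmem (n - 1 - C.smp i) K
  | (a, b, k) :: L, K => Nat.blt k n && lmem b K && (Nat.beq k (C.coxN l b) || ex K b k ||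
      lmem a K && lmem (n - 1 - a) K && C.reflOK l a b k) && genRun ex L (k :: K)

/-- the check for fields with more than two elements -/
def chkBig (r s c : ℕ) (L : List (ℕ × ℕ × ℕ)) : Bool :=
  Nat.blt r n && Nat.blt s n && Nat.blt c n && ieq (C.pairF l c s) 0 && Nat.beq (C.pairF l c r).natAbs 1 &&
    Nat.beq (C.pairF l (C.coxN l c) r).natAbs 1 &&
    (Nat.beq (C.pairF l (C.coxN l c) s).natAbs 1 || Nat.beq (C.pairF l (C.coxN l c) s).natAbs 2) &&
    C.genRun n l (fun _ _ _ => false) L [r, s]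

/-- the check for the field with two elements -/
def chkTwo (r s : ℕ) (L : List (ℕ × ℕ × ℕ)) : Bool :=
  Nat.blt r n && Nat.blt s n && C.longB n s && ieq (C.pairF l s r) 0 &&
    C.genRun n l (fun K d k => C.longB n d && ieq (C.pairF l d r) (-1) && C.reflOK l d r k &&
      (C.longB n r || ieq (C.pairF l r d) (-2) && K.any (C.reflOK l r d))) L [s]

end Cert

variable {D : ChevalleyDatum} [Good D]

/-- the Coxeter element -/
def coxW (D : ChevalleyDatum) [Good D] : Equiv.Perm (Rt D) := ((List.finRange D.rank).map (rootSys D).sp).prod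

theorem coxW_mem : coxW D ∈ (rootSys D).W := (rootSys D).mem_W_iff.2 ⟨_, rfl⟩

theorem coxW_val (s : Rt D) : (coxW D s : ℕ) = (Good.C D).coxN D.rank s := by
  rw [coxW, Cert.coxN, ← List.map_coe_finRange_eq_range]
  induction List.finRange D.rank with
  | nil => rfl
  | cons i L ih => simp [rootSys_sp, rf_sm_val', ih]

theorem eq_refl_of_chk {a b k : Rt D} (h : (Good.C D).reflOK D.rank a b k = true) : k = (rootSys D).refl a b := by
  simp only [Cert.reflOK, allLt_iff, ieq_iff] at h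
  refine (rootSys D).rt_inj (funext fun i => ?_)
  rw [RootSys.rt_refl, rootSys_pair']
  exact h i i.2

theorem long_of_longB {r : Rt D} (h : (Good.C D).longB D.nroots r = true) : (rootSys D).Long r := fun k => by
  simp only [Cert.longB, allLt_iff, Nat.ble_eq] at h
  exact Nat.cast_le.2 (h k k.2)

theorem of_genRun {P : Rt D → Prop} (hP : (rootSys D).Cl2 (coxW D) P) {ex : List ℕ → ℕ → ℕ → Bool}
    (hex : ∀ K (b k : Rt D), (∀ k ∈ K, ∃ h : k < D.nroots, P ⟨k, h⟩) → P b → ex K b k = true → P k)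
    (L : List (ℕ × ℕ × ℕ)) (K : List ℕ) (hK : ∀ k ∈ K, ∃ h : k < D.nroots, P ⟨k, h⟩)
    (h : (Good.C D).genRun D.nroots D.rank ex L K = true) (i : Fin D.rank) :
    P ((rootSys D).simple i) ∧ P ((rootSys D).neg ((rootSys D).simple i)) := by
  have hK' : ∀ {K : List ℕ}, (∀ k ∈ K, ∃ h : k < D.nroots, P ⟨k, h⟩) → ∀ r : Rt D, ∀ k ∈ K, r.1 = k → P r :=
    fun hK r k hk e => by subst e; exact (hK _ hk).2
  induction L generalizing K with
  | nil =>
    simp only [Cert.genRun, allLt_iff, Bool.and_eq_true, lmem_iff] at h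
    exact ⟨hK' hK _ _ (h i i.2).1 (sm_val' i), hK' hK _ _ (h i i.2).2 (by rw [← sm_val', ← ng_val']; rfl)⟩
  | cons a L ih =>
    obtain ⟨a, b, k⟩ := a
    simp only [Cert.genRun, Bool.and_eq_true, Bool.or_eq_true, lmem_iff, Nat.blt_eq, Nat.beq_eq] at h
    obtain ⟨⟨⟨h1, h2⟩, h3⟩, h4⟩ := h
    obtain ⟨hb, pb⟩ := hK b h2
    refine ih _ (List.forall_mem_cons.2 ⟨⟨h1, ?_⟩, hK⟩) h4
    rcases h3 with (h3 | h3) | ⟨⟨h3, h5⟩, h6⟩
    · exact (Fin.ext ((coxW_val _).trans h3.symm) : coxW D ⟨b, hb⟩ = ⟨k, h1⟩) ▸ hP.1 _ pb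
    · exact hex K ⟨b, hb⟩ _ hK pb h3
    · obtain ⟨ha, pa⟩ := hK a h3
      rw [eq_refl_of_chk (a := ⟨a, ha⟩) (b := ⟨b, hb⟩) (k := ⟨k, h1⟩) h6]
      exact hP.2 _ _ pa (hK' hK _ _ h5 (ng_val' _)) pb

variable {F G : Type*} [Field F] [Fintype F] [Group G] {S : StData (rootSys D) F G}

theorem two_gen_of_chkBig (htop : S.grp = ⊤) (hq : 2 < Fintype.card F) {r s c : ℕ} {L : List (ℕ × ℕ × ℕ)}
    (h : (Good.C D).chkBig D.nroots D.rank r s c L = true) : ∃ a b : G, Subgroup.closure {a, b} = ⊤ := by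
  simp only [Cert.chkBig, Bool.and_eq_true, Bool.or_eq_true, Nat.blt_eq, Nat.beq_eq, ieq_iff] at h
  obtain ⟨⟨⟨⟨⟨⟨⟨hr, hs⟩, hc⟩, h1⟩, h2⟩, h3⟩, h4⟩, h5⟩ := h
  refine S.two_gen_big htop hq coxW_mem (r := ⟨r, hr⟩) (s := ⟨s, hs⟩) (c := ⟨c, hc⟩) ?_ ?_ ?_ ?_
    fun P hP p1 p2 => of_genRun hP (by simp) L _ (by simp [*]) h5 <;> simpa only [rootSys_pair', coxW_val]

theorem two_gen_of_chkTwo (hS : S.Good) (htop : S.grp = ⊤) (hq : Fintype.card F ≤ 2) {r s : ℕ}
    {L : List (ℕ × ℕ × ℕ)} (h : (Good.C D).chkTwo D.nroots D.rank r s L = true) :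
    ∃ a b : G, Subgroup.closure {a, b} = ⊤ := by
  simp only [Cert.chkTwo, Bool.and_eq_true, Nat.blt_eq, ieq_iff] at h
  obtain ⟨⟨⟨⟨hr, hs⟩, h1⟩, h2⟩, h5⟩ := h
  refine S.two_gen_two hS htop hq coxW_mem (r := ⟨r, hr⟩) (s := ⟨s, hs⟩) (long_of_longB h1)
    (by rwa [rootSys_pair']) fun P hP p1 p2 => of_genRun hP (fun K d k hK pd h => ?_) L _ (by simp [*]) h5
  simp only [Bool.and_eq_true, Bool.or_eq_true, ieq_iff, List.any_eq_true] at h
  obtain ⟨⟨⟨e1, e2⟩, e3⟩, e4⟩ := h
  rw [eq_refl_of_chk (b := ⟨r, hr⟩) e3]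
  refine p2 d (long_of_longB e1) (by rwa [rootSys_pair']) pd (e4.imp long_of_longB fun ⟨e4, m, hm, e5⟩ =>
    ⟨by rwa [rootSys_pair'], ?_⟩)
  obtain ⟨hm, pm⟩ := hK m hm
  rwa [← eq_refl_of_chk (a := ⟨r, hr⟩) (k := ⟨m, hm⟩) e5]

theorem chkBig_G2 : (Good.C chevG2).chkBig chevG2.nroots chevG2.rank 5 3 10 [(12, 3, 7), (12, 5, 10), (12, 10,
    11), (12, 11, 6), (12, 7, 9), (12, 9, 8), (12, 8, 4)] = true := by decide +kernel

theorem chkBig_B2 : (Good.C chevB2).chkBig chevB2.nroots chevB2.rank 2 3 0 [(8, 2, 1), (8, 1, 5), (8, 3, 7),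
    (8, 7, 4)] = true := by decide +kernel

theorem chkBig_D4 : (Good.C chevD4).chkBig chevD4.nroots chevD4.rank 7 18 10 [(24, 18, 14), (24, 7, 11), (24,
    11, 20), (24, 20, 16), (24, 14, 22), (24, 22, 5), (24, 5, 9), (7, 9, 13), (24, 16, 12), (7, 14, 10)] = true :=
    by decide +kernel

theorem chkTwo_D4 : (Good.C chevD4).chkTwo chevD4.nroots chevD4.rank 12 5 [(24, 5, 9), (24, 9, 1), (24, 1,
    18), (24, 18, 14), (25, 14, 15), (24, 15, 13), (9, 15, 12), (25, 1, 2), (24, 2, 8), (24, 8, 10), (9, 8, 11)] =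
    true := by decide +kernel

theorem chkBig_F4 : (Good.C chevF4).chkBig chevF4.nroots chevF4.rank 14 25 29 [(48, 14, 20), (48, 20, 12),
    (48, 12, 9), (48, 9, 19), (48, 19, 11), (48, 11, 33), (48, 33, 27), (48, 25, 24), (48, 24, 5), (48, 5, 17),
    (48, 17, 4), (48, 4, 16), (48, 16, 22), (48, 22, 23)] = true := by decide +kernel

theorem chkTwo_F4 : (Good.C chevF4).chkTwo chevF4.nroots chevF4.rank 10 25 [(48, 25, 24), (48, 24, 5), (48, 5,
    17), (48, 17, 4), (48, 4, 16), (48, 16, 22), (48, 22, 23), (48, 23, 42), (24, 42, 41), (49, 41, 33), (48, 33,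
    27), (48, 42, 30), (24, 5, 6), (49, 30, 14), (48, 14, 20)] = true := by decide +kernel

theorem chkBig_E6 : (Good.C chevE6).chkBig chevE6.nroots chevE6.rank 19 11 40 [(72, 11, 56), (72, 19, 32),
    (72, 32, 34), (72, 34, 35), (72, 35, 63), (72, 63, 43), (72, 43, 48), (72, 48, 60), (11, 63, 46), (72, 56,
    42), (72, 42, 47), (72, 47, 59), (72, 59, 52), (72, 52, 39), (72, 39, 37), (72, 37, 36), (72, 60, 15), (72,
    36, 8), (11, 8, 25), (72, 15, 29)] = true := by decide +kernel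

theorem chkTwo_E6 : (Good.C chevE6).chkTwo chevE6.nroots chevE6.rank 62 60 [(72, 60, 15), (73, 15, 51), (72,
    51, 65), (72, 65, 44), (72, 44, 49), (72, 49, 25), (72, 25, 13), (72, 13, 20), (73, 20, 56), (72, 15, 29),
    (72, 29, 24), (72, 24, 12), (73, 12, 46), (72, 56, 42), (73, 25, 59), (72, 59, 52), (72, 52, 39), (72, 39,
    37), (72, 37, 36), (72, 12, 19), (72, 19, 32), (72, 32, 34), (72, 34, 35)] = true := by decide +kernel

theorem chkBig_E7 : (Good.C chevE7).chkBig chevE7.nroots chevE7.rank 86 64 106 [(126, 64, 63), (126, 63, 23),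
    (126, 23, 51), (126, 51, 45), (126, 45, 28), (126, 28, 39), (126, 39, 56), (126, 56, 59), (126, 59, 61), (126,
    61, 62), (126, 62, 102), (86, 102, 93), (126, 86, 69), (126, 69, 66), (126, 102, 74), (126, 74, 80), (66, 80,
    79), (69, 79, 78), (69, 74, 73), (86, 23, 32), (66, 45, 46), (69, 46, 47), (69, 51, 52)] = true :=
    by decide +kernel

theorem chkTwo_E7 : (Good.C chevE7).chkTwo chevE7.nroots chevE7.rank 70 51 [(126, 51, 45), (126, 45, 28),
    (126, 28, 39), (126, 39, 56), (126, 56, 59), (126, 59, 61), (126, 61, 62), (126, 62, 102), (126, 102, 74),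
    (127, 45, 47), (126, 47, 30), (126, 30, 41), (126, 41, 21), (126, 21, 12), (126, 12, 37), (126, 37, 18), (126,
    18, 49), (126, 49, 43), (126, 43, 78), (126, 78, 95), (51, 95, 93), (51, 56, 73), (127, 59, 69), (127, 56,
    66), (126, 66, 64), (126, 64, 63), (51, 30, 32), (51, 69, 52)] = true := by decide +kernel

theorem chkBig_E8 : (Good.C chevE8).chkBig chevE8.nroots chevE8.rank 88 226 193 [(240, 88, 109), (240, 109,
    113), (240, 113, 116), (240, 116, 118), (240, 118, 119), (240, 119, 173), (240, 173, 136), (240, 136, 143),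
    (240, 143, 166), (240, 166, 150), (240, 150, 177), (240, 177, 137), (240, 137, 144), (240, 144, 167), (240,
    167, 151), (88, 173, 162), (240, 151, 130), (240, 130, 126), (113, 143, 142), (109, 142, 141), (109, 136,
    135), (240, 126, 123), (240, 123, 121), (240, 121, 120), (240, 120, 66), (88, 66, 77), (240, 66, 103), (240,
    103, 96), (113, 96, 97), (109, 97, 98), (109, 103, 104)] = true := by decide +kernel

theorem chkTwo_E8 : (Good.C chevE8).chkTwo chevE8.nroots chevE8.rank 168 27 [(240, 27, 41), (241, 41, 86),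
    (240, 86, 60), (240, 60, 47), (240, 47, 85), (240, 85, 59), (240, 59, 101), (240, 101, 94), (240, 94, 71),
    (240, 71, 162), (240, 41, 82), (240, 82, 57), (240, 57, 100), (240, 100, 93), (240, 93, 141), (240, 162, 135),
    (241, 57, 95), (240, 95, 72), (240, 72, 88), (240, 88, 109), (240, 109, 113), (240, 113, 116), (240, 116,
    118), (240, 118, 119), (241, 119, 167), (240, 167, 151), (240, 151, 130), (240, 130, 126), (240, 126, 123),
    (240, 123, 121), (241, 72, 120), (241, 141, 173), (240, 173, 136), (240, 136, 143), (241, 143, 180), (240,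
    180, 138), (240, 138, 145), (240, 145, 168), (240, 168, 77), (240, 120, 66), (241, 66, 98), (240, 77, 104)] =
    true := by decide +kernel

omit [Good D] in
theorem two_gen_group (hD : D ∈ [chevG2, chevB2, chevD4, chevF4, chevE6, chevE7, chevE8])
    (hF : D ∈ [chevB2, chevG2] → 2 < Fintype.card F) : ∃ a b : D.group F, Subgroup.closure {a, b} = ⊤ := by
  simp only [List.mem_cons, List.not_mem_nil, or_false] at hD
  rcases lt_or_ge 2 (Fintype.card F) with h | h
  · rcases hD with rfl | rfl | rfl | rfl | rfl | rfl | rfl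
    exacts [two_gen_of_chkBig stG_top h chkBig_G2, two_gen_of_chkBig stG_top h chkBig_B2,
      two_gen_of_chkBig stG_top h chkBig_D4, two_gen_of_chkBig stG_top h chkBig_F4,
      two_gen_of_chkBig stG_top h chkBig_E6, two_gen_of_chkBig stG_top h chkBig_E7,
      two_gen_of_chkBig stG_top h chkBig_E8]
  · rcases hD with rfl | rfl | rfl | rfl | rfl | rfl | rfl
    exacts [absurd (hF (by simp)) h.not_gt, absurd (hF (by simp)) h.not_gt,
      two_gen_of_chkTwo stG_good stG_top h chkTwo_D4, two_gen_of_chkTwo stG_good stG_top h chkTwo_F4,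
      two_gen_of_chkTwo stG_good stG_top h chkTwo_E6, two_gen_of_chkTwo stG_good stG_top h chkTwo_E7,
      two_gen_of_chkTwo stG_good stG_top h chkTwo_E8]

end CL.Chev
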