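import Cfsg.Agent.KSG.GenCl
import Cfsg.Agent.CHEV.LieData
import Cfsg.Agent.CHEV.TwRel
import Cfsg.Agent.CHEV.TwSyl

/-!
Steinberg's pairs of generators for twisted groups.
-/

set_option autoImplicit false
set_option linter.unusedSectionVars false
set_option maxHeartbeats 400000

namespace CL.Chev

open CL.KSG

variable {ι κ κ' : Type*} [Fintype κ] [DecidableEq κ] {R : RootSys ι κ} {F G G₀ : Type*} [Field F] [Group G]
  [Group G₀]

theorem zpow_gen_of_fixed [Finite F] {ζ : Fˣ} (hζ : ∀ u, u ∈ Subgroup.zpowers ζ) {q e : ℕ} (hq : 2 ≤ q)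
    (hF : Nat.card F - 1 = e * (q - 1)) {t : F} (h0 : t ≠ 0) (ht : t ^ q = t) : ∃ n : ℤ, t = ((ζ : F) ^ e) ^ n := by
  have := Fintype.ofFinite F
  obtain ⟨k, hk⟩ := mem_powers_iff_mem_zpowers.2 (hζ (Units.mk0 t h0))
  obtain rfl : (ζ : F) ^ k = t := by simpa using congrArg Units.val hk
  obtain ⟨q, rfl⟩ := Nat.exists_eq_add_of_le' (show 1 ≤ q by omega)
  rw [pow_succ, mul_eq_right₀ h0, ← pow_mul, card_sub_one_dvd_of_gen hζ, ← Nat.card_eq_fintype_card, hF,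
    Nat.add_sub_cancel, Nat.mul_dvd_mul_iff_right (by omega)] at ht
  obtain ⟨n, rfl⟩ := ht
  exact ⟨n, by rw [zpow_natCast, pow_mul]⟩

namespace StData

variable {S : StData R F G}

theorem pow_card_of_mem_H [Finite F] {h : G} (hh : h ∈ S.H) : h ^ Nat.card F = h := by
  obtain ⟨t, rfl⟩ := S.R3_of_finite.range_torHom.ge hh
  rw [← map_pow, show t ^ Nat.card F = t from funext fun i => Units.ext (pow_natCard _)]

theorem x_pow_card [Finite F] (r : ι) (t : F) : S.x r t ^ Nat.card F = 1 := by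
  have := Fintype.ofFinite F
  rw [x_pow, Nat.card_eq_fintype_card, FiniteField.cast_card_eq_zero, zero_mul, S.x_zero]

namespace Twist

variable [Finite ι] {T : S.Twist κ'}

/-- `y` parametrises the fixed points in the unipotent group of the orbit of `i` -/
structure Par (T : S.Twist κ') (i : κ) (y : F → G) : Prop where
  add : ∀ t u, y (t + u) = y t * y u
  mem : ∀ g, g ∈ S.XS (T.pos (T.c i)) ⊓ T.Fix ↔ ∃ t, g = y t
  lead : ∀ t, ∃ z ∈ S.XS {r | R.IsPos r ∧ r ≠ R.simple i}, y t = S.x (R.simple i) t * z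

theorem Par.conj (hS : S.Good) {i : κ} {y : F → G} (hy : T.Par i y) {h : G} (hh : h ∈ S.H ⊓ T.Fix) {χ : ι → F}
    (hχ : ∀ s u, h * S.x s u * h⁻¹ = S.x s (χ s * u)) (t : F) : h * y t * h⁻¹ = y (χ (R.simple i) * t) := by
  have ha := S.acts_of_mem_H hh.1
  obtain ⟨u, e⟩ := (hy.mem _).1 (T.conj_mem_inf hh.2 ha (fun r hr => hr) ((hy.mem _).2 ⟨t, rfl⟩))
  obtain ⟨z, hz, e1⟩ := hy.lead t
  obtain ⟨z', hz', e2⟩ := hy.lead u
  rw [e, ← (hS.cancel_x (t := χ (R.simple i) * t) (t' := u) (R.isPos_simple i) (A := {r | R.IsPos r ∧ r ≠ R.simple i}) (fun r hr => hr.1)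
    (fun r hr s hs l hl => ⟨hl.isPos hr.1 hs.1, hl.ne_simple hr.1 hs.1 i⟩) (fun h => h.2 rfl)
    (ha.conj_mem_XS (fun r hr => hr) hz) hz' (by rw [← hχ, ← e2, ← e, e1]; group)).1]

theorem par_two (hS : S.Good) {i j : κ} (hJ : T.J (T.c i) = {i, j}) (hij : i ≠ j) (h : R.A i j = 0) (hi : T.π i = j)
    (hj : T.π j = i) (hf : ∀ t, T.f j (T.f i t) = t) :
    T.Par i fun t => S.x (R.simple i) t * S.x (R.simple j) (T.f i t) where
  add t u := by
    rw [map_add, S.x_add, S.x_add, (commute_orth hij h (S.x_mem_sub_self R.isSgn_pos _ _)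
      (S.x_mem_sub_self R.isSgn_pos _ _)).mul_mul_mul_comm]
  mem _ := T.mem_pos_two hS hJ hij h hi hj hf
  lead _ := ⟨_, S.x_mem_ne_simple hij.symm _, rfl⟩

theorem par_three (hS : S.Good) {i j k : κ} (hJ : T.J (T.c i) = {i, j, k}) (hij : i ≠ j) (hik : i ≠ k) (hjk : j ≠ k)
    (h1 : R.A i j = 0) (h2 : R.A i k = 0) (h3 : R.A j k = 0) (hi : T.π i = j) (hj : T.π j = k) (hk : T.π k = i)
    (hf : ∀ t, T.f k (T.f j (T.f i t)) = t) :
    T.Par i fun t => S.x (R.simple i) t * S.x (R.simple j) (T.f i t) * S.x (R.simple k) (T.f j (T.f i t)) where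
  add t u := by
    have hx := S.x_mem_sub_self R.isSgn_pos
    rw [map_add, map_add, S.x_add, S.x_add, S.x_add,
      mul_three_orth hij hik hjk h1 h2 h3 (hx j _) (hx k _) (hx i _) (hx j _)]
  mem _ := T.mem_pos_three hS hJ hij hik hjk h1 h2 h3 hi hj hk hf
  lead _ := ⟨_, mul_mem (S.x_mem_ne_simple hij.symm _) (S.x_mem_ne_simple hik.symm _), mul_assoc _ _ _⟩

theorem pos_le_of_one (hS : S.Good) {k : κ} (hJ : T.J (T.c k) = {k}) {β : F} (hβ : β ≠ 0)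
    (h : ∀ t ≠ 0, T.f k t = t → ∃ n : ℤ, t = β ^ n) {K : Subgroup G} (hz : S.x (R.simple k) 1 ∈ K) {g : G} (hg : g ∈ K)
    (e : ∀ u, g * S.x (R.simple k) u * g⁻¹ = S.x (R.simple k) (β * u)) : S.XS (T.pos (T.c k)) ⊓ T.Fix ≤ K := by
  intro x hx
  obtain ⟨t, ht, rfl⟩ := (T.mem_pos_one hS hJ).1 hx
  by_cases h0 : t = 0
  · rw [h0, S.x_zero]; exact one_mem _
  obtain ⟨n, rfl⟩ := h t h0 ht
  clear ht h0 hx
  induction n using Int.induction_on with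
  | zero => simpa using hz
  | succ n ih => rw [zpow_add_one₀ hβ, mul_comm, ← e]; exact mul_mem (mul_mem hg ih) (inv_mem hg)
  | pred n ih =>
    have := e (β ^ (-(n : ℤ) - 1))
    rw [mul_comm β, ← zpow_add_one₀ hβ, sub_add_cancel] at this
    rwa [← this, mul_mem_cancel_right (inv_mem hg), mul_mem_cancel_left hg] at ih

/-- **Steinberg's two generators for twisted groups.** -/
theorem IsLie.two_gen [Finite F] {j : G₀ →* G} (hj : T.IsLie j) {i k : κ} {y : F → G} (hy : T.Par i y) {h z : G}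
    (hh : h ∈ S.H ⊓ j.range) {χ : ι → F} (hχ : ∀ s u, h * S.x s u * h⁻¹ = S.x s (χ s * u))
    (hz : z ∈ S.XS (T.pos (T.c k)) ⊓ T.Fix) (hz1 : z ^ Nat.card F = 1) (hz2 : ∀ r ∈ T.pos (T.c k), χ r = 1)
    {w v : Equiv.Perm ι} (hw : w ∈ T.W1) (hv : v ∈ Subgroup.zpowers w)
    (h1 : ∀ t, ∃ f : Polynomial ℤ, Polynomial.aeval (χ (R.simple i)) f = t) (h2 : χ (R.simple i) ≠ 1)
    (h3 : χ (w (R.simple i)) ≠ 1)
    (h4 : ∀ K : Subgroup G, z ∈ K → ∀ g ∈ K, (∀ s u, g * S.x s u * g⁻¹ = S.x s (χ (v s) * u)) →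
      S.XS (T.pos (T.c k)) ⊓ T.Fix ≤ K)
    (h5 : ∀ P : ι → Prop, (∀ v ∈ Subgroup.zpowers w, ∀ r, P r → P (v r)) → P (R.simple i) → P (R.simple k) →
      ∀ a, (∃ l, T.c l = a ∧ P (R.simple l)) ∧ ∃ l, T.c l = a ∧ P (R.neg (R.simple l))) :
    ∃ a b : G₀, Subgroup.closure {a, b} = ⊤ := by
  have hS := hj.good
  have hM := hj.isTw
  obtain ⟨g, hg, ha⟩ := hM.exists_acts hS (inv_mem hw)
  obtain ⟨a, ea⟩ := mul_mem hh.2 (hM.pos_le _ hz)
  obtain ⟨b, eb⟩ := mul_mem (hM.pos_le _ ((hy.mem _).2 ⟨1, rfl⟩)) hg.2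
  refine ⟨a, b, Subgroup.map_injective hj.inj ?_⟩
  rw [MonoidHom.map_closure, Set.image_pair, ← MonoidHom.range_eq_map]
  have hKM : Subgroup.closure {j a, j b} ≤ j.range :=
    (Subgroup.closure_le _).2 (by rintro _ (rfl | rfl) <;> exact ⟨_, rfl⟩)
  rw [ea, eb] at *
  set K := Subgroup.closure {h * z, y 1 * g}
  have ma : h * z ∈ K := Subgroup.subset_closure (Or.inl rfl)
  have mh : h ∈ K := by
    have hc : S.XS (T.pos (T.c k)) ≤ Subgroup.centralizer {h} := S.XS_le_iff.2 fun r hr t => by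
      rw [Subgroup.mem_centralizer_singleton_iff, eq_comm, ← mul_inv_eq_iff_eq_mul, hχ, hz2 r hr, one_mul]
    have := pow_mem ma (Nat.card F)
    rwa [Commute.mul_pow (Subgroup.mem_centralizer_singleton_iff.1 (hc hz.1)).symm, hz1, mul_one,
      pow_card_of_mem_H hh.1] at this
  have hF := hM.le_fix
  obtain ⟨p1, p2⟩ := addx_mem_of_pair hy.add mh (Subgroup.subset_closure (Or.inr rfl)) h1 h2 h3
    (hy.conj hS ⟨hh.1, hF hh.2⟩ hχ)
    (hy.conj hS ⟨ha.conj_mem_H hh.1, hF (mul_mem (mul_mem hg.2 hh.2) (inv_mem hg.2))⟩ (ha.conj_chr hχ))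
    (hj.adj.H_comm hh.1 (ha.conj_mem_H hh.1))
  let Q : Subgroup (Equiv.Perm ι) :=
    { carrier := {v | ∃ n ∈ S.N ⊓ K, S.Acts n v}
      one_mem' := ⟨1, one_mem _, S.acts_one⟩
      mul_mem' := fun ⟨n, hn, h⟩ ⟨n', hn', h'⟩ => ⟨_, mul_mem hn hn', h.mul h'⟩
      inv_mem' := fun ⟨n, hn, h⟩ => ⟨_, inv_mem hn, h.inv⟩ }
  have hQ : Subgroup.zpowers w ≤ Q := Subgroup.zpowers_le.2 (inv_mem_iff.1 ⟨g, ⟨hg.1, p2⟩, ha⟩)
  have key := h5 (fun r => S.XS (T.cls r) ⊓ T.Fix ≤ K) (fun v hv r hr x hx => ?_)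
    (by rw [T.cls_simple]; intro x hx; obtain ⟨t, rfl⟩ := (hy.mem _).1 hx; exact p1 t) ?_
  · refine le_antisymm hKM (hM.le_of_orbits hS hj.gen (fun a => ?_) fun a => ?_)
    · obtain ⟨l, rfl, q⟩ := (key a).1
      exact (inf_le_inf_left _ hF).trans (T.cls_simple l ▸ q)
    · obtain ⟨l, rfl, q⟩ := (key a).2
      exact (inf_le_inf_left _ hF).trans
        ((T.isRel_ngt _).eq_cls (T.neg_mem_ngt.2 (T.simple_mem_pos (T.mem_J_c l))) ▸ q)
  · obtain ⟨n, hn, hv⟩ := hQ hv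
    have hn' := hF (hKM hn.2)
    rw [RootSys.Sym.cls_W1 (T.mem_W1_of_acts hS hn.1 hn' hv)] at hx
    have := hr (T.conj_mem_inf (inv_mem hn') hv.inv (by rintro _ ⟨r, hr, rfl⟩; simpa using hr) hx)
    rwa [inv_inv, K.mul_mem_cancel_right hn.2, K.mul_mem_cancel_left (K.inv_mem hn.2)] at this
  · obtain ⟨n, hn, e⟩ : v⁻¹ ∈ Q := inv_mem (hQ hv)
    rw [T.cls_simple]
    exact h4 K ((mul_mem_cancel_left mh).1 ma) _ (mul_mem (mul_mem hn.2 mh) (inv_mem hn.2)) (e.conj_chr hχ)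

end Twist

end StData

end CL.Chev
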