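import Cfsg.Agent.KSG.GenTw
import Cfsg.Agent.CHEV.TwInv
import Cfsg.Agent.CHEV.TwLiftJ

/-!
The twisted groups of types `²E₆`, `³D₄`, `²F₄`, `²D` are generated by two elements.
-/

set_option autoImplicit false
set_option linter.unusedSectionVars false
set_option maxHeartbeats 400000

namespace CL.Chev

open CL.KSG CL.Cox CL.Cox.Calc

variable {ι F G G₀ : Type*} [Field F] [Group G] [Group G₀] [Finite ι]

theorem RootSys.rt_word_pow {n : ℕ} {R : RootSys ι (Fin n)} {A : List (List ℤ)} (hA : R.A = matA n A)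
    (l : List (Fin n)) (k : ℕ) (i : Fin n) : R.rt (((l.map R.sp).prod ^ k) (R.simple i)) =
      toV n (actW n A ((List.replicate k l).flatten.map Fin.val) (unitL n i)) := by
  rw [← RootSys.rt_word_simple hA]
  congr 3
  induction k with
  | zero => simp
  | succ k ih => rw [pow_succ', ih]; simp [List.replicate_succ]

theorem RootSys.word_step {n : ℕ} {R : RootSys ι (Fin n)} {A : List (List ℤ)} (hA : R.A = matA n A)
    {l : List (Fin n)} {P : ι → Prop} (hP : ∀ v ∈ Subgroup.zpowers (l.map R.sp).prod, ∀ r, P r → P (v r)) (k : ℕ)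
    {i : Fin n} (p : P (R.simple i)) (j : Fin n) :
    (toV n (actW n A ((List.replicate k l).flatten.map Fin.val) (unitL n i)) = Pi.single j 1 → P (R.simple j)) ∧
    (toV n (actW n A ((List.replicate k l).flatten.map Fin.val) (unitL n i)) = -Pi.single j 1 →
      P (R.neg (R.simple j))) := by
  have := hP _ (Subgroup.npow_mem_zpowers _ k) _ p
  rw [← RootSys.rt_word_pow hA, ← R.rt_simple, ← R.rt_neg]
  exact ⟨fun h => R.rt_inj h ▸ this, fun h => R.rt_inj h ▸ this⟩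

theorem gen_pow_ne_one [Finite F] {ζ : Fˣ} (hζ : ∀ u, u ∈ Subgroup.zpowers ζ) {k : ℕ} (h0 : 0 < k)
    (hk : k + 1 < Nat.card F) : (ζ : F) ^ k ≠ 1 := fun e => by
  have := Fintype.ofFinite F
  have := Nat.le_of_dvd h0 ((card_sub_one_dvd_of_gen hζ).1 e)
  rw [Nat.card_eq_fintype_card] at hk
  omega

namespace StData.Twist

theorem IsE6.two_gen {R : RootSys ι (Fin 6)} {S : StData R F G} {T : S.Twist (Fin 4)} {q : ℕ} (h : T.IsE6 q)
    {j : G₀ →* G} (hj : T.IsLie j) : ∃ a b : G₀, Subgroup.closure {a, b} = ⊤ := by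
  have := h.finite
  have := Fintype.ofFinite F
  have hS := hj.good
  have hq := h.two_le
  have h4 : 3 < Nat.card F := h.isQS.three_lt
  obtain ⟨ζ, hζ⟩ := IsCyclic.exists_generator (α := Fˣ)
  have h0 := ζ.ne_zero
  have hc : ∀ i, T.c i = ![3, 0, 2, 1, 2, 3] i := congrFun h.c
  have e := fun a => T.w_eq_word h.A h.c ![[1], [3], [2, 4], [0, 5]] (by decide) (by decide +kernel) a
  have ht : ![ζ, 1, 1, 1, 1, ζ ^ q] ∈ T.Tσ := h.mem_Tσ.2 ⟨one_pow _, one_pow _, (one_pow _).symm, rfl⟩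
  have hJ : T.J (T.c 1) = {1} := hc 1 ▸ h.J0
  refine hj.two_gen (par_two hS (i := 0) (j := 5) (by rw [hc]; exact h.J3) (by decide) (h.A_eq _ _) (h.π _) (h.π _) (h.ff _ _)) (k := 1)
    ⟨hS.tau_mem hj.adj _, h.tau_mem hS hj.isTw hj.adj ht⟩ (hS.tau_conj hj.adj _)
    ((T.mem_pos_one hS hJ).2 ⟨1, map_one _, rfl⟩) (x_pow_card _ _) (fun r hr => ?_)
    (w := ([1, 3, 2, 4, 0, 5].map R.sp).prod) ?_ (Subgroup.npow_mem_zpowers _ 2) ?_ ?_ ?_
    (fun K hz g hg eg => pos_le_of_one hS hJ (chr_ne_zero (fun _ => Units.ne_zero _) _) (fun t t0 ht => ?_) hz hg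
      (eg _)) fun P hP p0 p1 a => ?_
  · rw [T.pos_eq_orth (by rw [hJ]; rintro _ rfl _ rfl h; exact absurd rfl h), hJ, Set.image_singleton] at hr
    rw [hr, R.rt_simple, chr_single]
    simp [matHom_apply, Fin.prod_univ_six, h.A_eq]
  · have := mul_mem (mul_mem (T.w_mem_W1 0) (T.w_mem_W1 1)) (mul_mem (T.w_mem_W1 2) (T.w_mem_W1 3))
    simpa [e, mul_assoc] using this
  · simpa [R.rt_simple, chr_single, matHom_apply, Fin.prod_univ_six, h.A_eq] using gen_poly_pow hζ two_pos (.inl le_rfl)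
  · simpa [R.rt_simple, chr_single, matHom_apply, Fin.prod_univ_six, h.A_eq, -sq_eq_one_iff] using
      gen_pow_ne_one hζ two_pos h4
  · rw [RootSys.rt_word_simple h.A, show toV 6 _ = ![-1, -1, -1, -1, 0, 0] by decide +kernel]
    simpa [chr, matHom_apply, Fin.prod_univ_six, h.A_eq, pow_two] using gen_pow_ne_one hζ one_pos (by omega)
  · obtain ⟨n, rfl⟩ := zpow_gen_of_fixed hζ hq (e := q + 1) (h.card ▸ Nat.sq_sub_sq q 1) t0 (h.f _ _ ▸ ht)
    rw [RootSys.rt_word_pow h.A, show toV 6 _ = ![0, 1, 1, 1, 1, 0] by decide +kernel]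
    exact ⟨-n, by simp [chr, matHom_apply, Fin.prod_univ_six, h.A_eq, pow_succ, mul_zpow, mul_comm]⟩
  · have s0 := fun k => RootSys.word_step h.A hP k p0
    have s1 := fun k => RootSys.word_step h.A hP k p1
    fin_cases a
    · exact ⟨⟨1, hc _, p1⟩, 1, hc _, (s1 6 _).2 (by decide +kernel)⟩
    · exact ⟨⟨3, hc _, (s1 1 _).1 (by decide +kernel)⟩, 3, hc _, (s1 7 _).2 (by decide +kernel)⟩
    · exact ⟨⟨2, hc _, (s0 11 _).1 (by decide +kernel)⟩, 4, hc _, (s0 5 _).2 (by decide +kernel)⟩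
    · exact ⟨⟨0, hc _, p0⟩, 5, hc _, (s0 6 _).2 (by decide +kernel)⟩

theorem IsD4.two_gen {R : RootSys ι (Fin 4)} {S : StData R F G} {T : S.Twist (Fin 2)} {q : ℕ} (h : T.IsD4 q)
    {j : G₀ →* G} (hj : T.IsLie j) : ∃ a b : G₀, Subgroup.closure {a, b} = ⊤ := by
  have := h.finite
  have := Fintype.ofFinite F
  have hS := hj.good
  have hq := h.two_le
  have h4 : 2 < Nat.card F := h.card ▸ lt_of_lt_of_le (by norm_num) (Nat.pow_le_pow_left hq 3)
  obtain ⟨ζ, hζ⟩ := IsCyclic.exists_generator (α := Fˣ)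
  have hp : ∀ u : Fˣ, ((u ^ q) ^ q) ^ q = u := fun u => Units.ext (h.pow_pow u)
  obtain ⟨ξ, hξ⟩ : ∃ ξ : Fˣ, ξ ^ q * (ξ ^ q) ^ q * ξ⁻¹ = ζ := by
    refine Finite.injective_iff_surjective.1 ((injective_iff_map_eq_one (powMonoidHom q * (powMonoidHom q).comp
      (powMonoidHom q) * (MonoidHom.id Fˣ)⁻¹)).2 fun u e => ?_) ζ
    have e0 : u ^ q * (u ^ q) ^ q = u := mul_inv_eq_one.1 e
    have e1 : (u ^ q) ^ q * u = u ^ q := by simpa only [mul_pow, hp] using congrArg (· ^ q) e0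
    have e2 : u * u ^ q = (u ^ q) ^ q := by simpa only [mul_pow, hp] using congrArg (· ^ q) e1
    have e3 : (u : F) ^ q = u := by
      rw [← e2, mul_right_comm, mul_eq_right, ← sq] at e1
      rw [← h.f 0]
      rcases sq_eq_one_iff.1 (show (u : F) ^ 2 = 1 from congrArg Units.val e1) with h | h <;> simp [h]
    rwa [show u ^ q = u from Units.ext e3, show u ^ q = u from Units.ext e3, mul_eq_left] at e0
  have hc : ∀ i, T.c i = ![0, 1, 0, 0] i := congrFun h.c
  have e := fun a => T.w_eq_word h.A h.c ![[0, 2, 3], [1]] (by decide) (by decide +kernel) a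
  have ht : ![ξ ^ q * (ξ ^ q) ^ q, ξ * ξ ^ q * (ξ ^ q) ^ q, (ξ ^ q) ^ q * ξ, ξ * ξ ^ q] ∈ T.Tσ :=
    h.mem_Tσ.2 ⟨by simp [mul_pow, h.pow_pow]; ring, by simp [mul_pow, hp], by simp [mul_pow, hp]⟩
  have hm : matHom Fˣ (Matrix.of R.A) ![ξ ^ q * (ξ ^ q) ^ q, ξ * ξ ^ q * (ξ ^ q) ^ q, (ξ ^ q) ^ q * ξ, ξ * ξ ^ q] =
      ![ζ, 1, ζ ^ q, (ζ ^ q) ^ q] := by
    funext i
    fin_cases i <;> simp [matHom_apply, Fin.prod_univ_four, h.A_eq, ← hξ, mul_pow, h.pow_pow, Units.ext_iff] <;>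
      field_simp
  have hJ : T.J (T.c 1) = {1} := hc 1 ▸ h.J1
  refine hj.two_gen (par_three hS (i := 0) (j := 2) (k := 3) (by rw [hc]; exact h.J0) (by decide) (by decide)
    (by decide) (h.A_eq _ _) (h.A_eq _ _) (h.A_eq _ _) (h.π _) (h.π _) (h.π _) (h.ff _ _ _)) (k := 1)
    ⟨hS.tau_mem hj.adj _, h.tau_mem hS hj.isTw hj.adj ht⟩ (hm ▸ hS.tau_conj hj.adj _)
    ((T.mem_pos_one hS hJ).2 ⟨1, map_one _, rfl⟩) (x_pow_card _ _) (fun r hr => ?_)
    (w := ([1, 0, 2, 3].map R.sp).prod) ?_ (Subgroup.npow_mem_zpowers _ 1) ?_ ?_ ?_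
    (fun K hz g hg eg => pos_le_of_one hS hJ (chr_ne_zero (fun _ => Units.ne_zero _) _) (fun t t0 ht => ?_) hz hg
      (eg _)) fun P hP p0 p1 a => ?_
  · rw [T.pos_eq_orth (by rw [hJ]; rintro _ rfl _ rfl h; exact absurd rfl h), hJ, Set.image_singleton] at hr
    rw [hr, R.rt_simple, chr_single]
    rfl
  · simpa [e, mul_assoc] using mul_mem (T.w_mem_W1 1) (T.w_mem_W1 0)
  · simpa [R.rt_simple, chr_single] using gen_poly_pow hζ one_pos (.inl one_le_two)
  · simpa [R.rt_simple, chr_single] using gen_pow_ne_one hζ one_pos h4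
  · rw [RootSys.rt_word_simple h.A, show toV 4 _ = ![-1, -1, 0, 0] by decide +kernel]
    simpa [chr, Fin.prod_univ_four] using gen_pow_ne_one hζ one_pos h4
  · obtain ⟨n, rfl⟩ := zpow_gen_of_fixed hζ hq (e := q * q + q + 1) (by
      obtain ⟨q, rfl⟩ := Nat.exists_eq_add_of_le' (show 1 ≤ q by omega)
      rw [h.card, Nat.sub_eq_iff_eq_add (Nat.one_le_pow _ _ (by omega)), Nat.add_sub_cancel]; ring) t0 (h.f _ _ ▸ ht)
    rw [RootSys.rt_word_pow h.A, show toV 4 _ = ![1, 2, 1, 1] by decide +kernel]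
    exact ⟨n, by simp [chr, Fin.prod_univ_four, pow_add, pow_mul, mul_comm, mul_assoc]⟩
  · fin_cases a
    · exact ⟨⟨0, hc _, p0⟩, 0, hc _, (RootSys.word_step h.A hP 3 p0 _).2 (by decide +kernel)⟩
    · exact ⟨⟨1, hc _, p1⟩, 1, hc _, (RootSys.word_step h.A hP 3 p1 _).2 (by decide +kernel)⟩

theorem IsF4.two_gen {R : RootSys ι (Fin 4)} {S : StData R F G} {T : S.Twist (Fin 2)} {m : ℕ} {θ : F →+* F} {c d : ι}
    (h : T.IsF4 m θ c d) (hm : 1 ≤ m) {j : G₀ →* G} (hj : T.IsLie j) : ∃ a b : G₀, Subgroup.closure {a, b} = ⊤ := by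
  have := h.finite
  have := h.charP
  have := Fintype.ofFinite F
  have hS := hj.good
  have h4 : 2 < Nat.card F := h.card ▸ lt_of_lt_of_le (by norm_num) (Nat.pow_le_pow_right two_pos (by omega : 2 ≤ _))
  obtain ⟨ζ, hζ⟩ := IsCyclic.exists_generator (α := Fˣ)
  have h0 := ζ.ne_zero
  have h0' : θ ζ ≠ 0 := (map_ne_zero θ).2 h0
  have hθ := h.θθ
  have hc : ∀ i, T.c i = ![0, 1, 1, 0] i := congrFun h.c_eq
  have e := fun a => T.w_eq_word h.A h.c_eq ![[0, 3], [1, 2, 1, 2]] (by decide) (by decide +kernel) a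
  let η : Fˣ := Units.map θ ζ
  have ht : ![η ^ 2 * ζ, η ^ 3 * ζ ^ 2, η ^ 4 * ζ ^ 3, η ^ 2 * ζ ^ 2] ∈ T.Tσ := h.mem_Tσ.2
    ⟨by simp [η, hθ, mul_comm], by
      simp [η, show ∀ x : F, x ^ 4 = (x ^ 2) ^ 2 from fun x => by ring, hθ, mul_comm (θ ζ ^ 3)]⟩
  have hM : matHom Fˣ (Matrix.of R.A) ![η ^ 2 * ζ, η ^ 3 * ζ ^ 2, η ^ 4 * ζ ^ 3, η ^ 2 * ζ ^ 2] = ![η, 1, 1, ζ] := by
    funext i
    fin_cases i <;> simp [η, matHom_apply, Fin.prod_univ_four, h.A_eq, Units.ext_iff] <;> field_simp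
  have hB : R.B2P (R.simple 1) (R.simple 2) c d := ⟨(R.pair_simple_simple _ _).trans (h.A_eq _ _),
    (R.pair_simple_simple _ _).trans (h.A_eq _ _), by rw [h.rt_c, h.rt_1, h.rt_2]; decide,
    by rw [h.rt_d, h.rt_1, h.rt_2]; decide⟩
  let y : F → F → G := fun t u =>
    S.x (R.simple 1) (θ t) * S.x (R.simple 2) t * S.x c (θ t * t + u) * S.x d (θ u ^ 2)
  have hy : ∀ t u t' u', y t u * y t' u' = y (t + t') (u + u' + θ t * t') := fun t u t' u' => by
    obtain ⟨ε, δ, -, -, -, e1⟩ := hS.B2_conj hB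
    have ac : ∀ t u g, S.x c u * (S.x (R.simple 1) t * g) = S.x (R.simple 1) t * (S.x c u * g) := fun t u g => by
      have := e1 t u
      rw [CharTwo.two_eq_zero, mul_inv_eq_iff_eq_mul] at this
      rw [← mul_assoc, ← mul_assoc, this]; simp [S.x_zero]
    have key : ∀ {r s : ι}, R.NoComb r s → ∀ t u g, S.x s u * (S.x r t * g) = S.x r t * (S.x s u * g) :=
      fun h t u g => by rw [← mul_assoc, ← S.comm_of_noComb h, mul_assoc]
    have ba : ∀ t u g, S.x (R.simple 2) u * (S.x (R.simple 1) t * g) =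
        S.x (R.simple 1) t * (S.x (R.simple 2) u * (S.x c (t * u) * (S.x d (t ^ 2 * u) * g))) := fun t u g => by
      simp only [← mul_assoc, h.frame.ba]
    have ad : ∀ r t u g, S.x r t * (S.x r u * g) = S.x r (t + u) * g := fun r t u g => by rw [S.x_add, mul_assoc]
    simp only [y, mul_assoc, ac, ba, key hB.noComb_d_m, key hB.noComb_d_l, key hB.noComb_c_l, key hB.noComb_m_l, ad,
      ← S.x_add, map_add, map_mul, CharTwo.add_sq, mul_pow, hθ]
    congr 3
    · congr 1; linear_combination (-(θ t * t')) * CharTwo.two_eq_zero (R := F)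
    · congr 1; ring
  refine hj.two_gen (par_two hS (i := 3) (j := 0) (by rw [hc]; exact h.J0) (by decide) (h.A_eq _ _) (h.π _) (h.π _)
    h.f03) (k := 2) ⟨hS.tau_mem hj.adj _, h.tau_mem hS hj.isTw hj.adj hj.gen ht⟩ (hM ▸ hS.tau_conj hj.adj _)
    (z := y 1 0) (by rw [hc]; exact (h.mem_pos_one hS).2 ⟨1, 0, rfl⟩) ?_ (fun r hr => ?_)
    (w := ([1, 2, 1, 2, 0, 3].map R.sp).prod) ?_ (Subgroup.mem_zpowers _) ?_ ?_ ?_ (fun K hz g hg eg x hx => ?_)
    fun P hP p0 p1 a => ?_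
  · rw [h.card, show 2 * m + 1 = 2 + (2 * m - 1) by omega, pow_add, pow_mul, pow_two 2, pow_mul, pow_two,
      pow_two, hy, hy]
    simp [y, S.x_zero, CharTwo.add_self_eq_zero]
  · have := (h.mem_pos r).2 (by rwa [hc] at hr)
    simp only [List.mem_cons, List.not_mem_nil, or_false] at this
    rcases this with rfl | rfl | rfl | rfl <;> simp [chr, Fin.prod_univ_four, h.rt_1, h.rt_2, h.rt_c, h.rt_d]
  · simpa [e, mul_assoc] using mul_mem (T.w_mem_W1 1) (T.w_mem_W1 0)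
  · simpa [R.rt_simple, chr_single] using gen_poly_pow hζ one_pos (.inl one_le_two)
  · simpa [R.rt_simple, chr_single] using gen_pow_ne_one hζ one_pos h4
  · rw [RootSys.rt_word_simple h.A, show toV 4 _ = ![0, -2, -2, -1] by decide +kernel]
    simpa [chr, Fin.prod_univ_four] using gen_pow_ne_one hζ one_pos h4
  · obtain ⟨t, u, rfl⟩ := (h.mem_pos_one hS).1 (by rwa [hc] at hx)
    have cj : ∀ t u, g * y t u * g⁻¹ = y (ζ * t) (θ ζ * ζ * u) := fun t u => by
      simp only [y, conj_mul_eq g, eg]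
      rw [RootSys.rt_word_simple h.A, RootSys.rt_word_simple h.A,
        RootSys.rt_word h.A (v := [0, 1, 1, 0]) _ (h.rt_c.trans (by decide)),
        RootSys.rt_word h.A (v := [0, 2, 1, 0]) _ (h.rt_d.trans (by decide)),
        show toV 4 _ = ![1, 1, 1, 0] by decide +kernel, show toV 4 _ = ![0, 2, 1, 1] by decide +kernel,
        show toV 4 _ = ![1, 3, 2, 1] by decide +kernel, show toV 4 _ = ![2, 4, 3, 1] by decide +kernel]
      simp [η, chr, Fin.prod_univ_four, mul_pow, hθ]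
      congr 3 <;> ring
    have k1 : ∀ t, ∃ u, y t u ∈ K := addSubgroup_of_gen (by simpa using gen_poly_pow hζ one_pos (.inl one_le_two))
      { carrier := {t | ∃ u, y t u ∈ K}
        zero_mem' := ⟨0, by simp [y, S.x_zero]⟩
        add_mem' := fun ⟨u, hu⟩ ⟨u', hu'⟩ => ⟨_, hy _ _ _ _ ▸ mul_mem hu hu'⟩
        neg_mem' := fun {t} ht => by rwa [CharTwo.neg_eq] }
      (fun t ⟨u, hu⟩ => ⟨_, cj t u ▸ mul_mem (mul_mem hg hu) (inv_mem hg)⟩) ⟨0, hz⟩ one_ne_zero
    obtain ⟨u', hu⟩ := k1 t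
    obtain ⟨s, hs⟩ : ∃ s, θ s * s = u' + u := Finite.injective_iff_surjective.1 (fun a b (e : θ a * a = θ b * b) => by
      have e1 := congrArg (θ · ^ 2) e
      simp only [map_mul, mul_pow, hθ] at e1
      by_cases ha : a = 0
      · simpa [ha, eq_comm (a := (0 : F))] using e
      · exact mul_right_cancel₀ (mul_ne_zero ha (pow_ne_zero 2 ((map_ne_zero θ).2 ha)))
          (by linear_combination (θ a * a + θ b * b) * e - b * e1)) _
    obtain ⟨v, hv⟩ := k1 s
    simpa [hy, hs, CharTwo.add_self_eq_zero, ← add_assoc] using mul_mem hu (mul_mem hv hv)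
  · fin_cases a
    · exact ⟨⟨3, hc _, p0⟩, 3, hc _, (RootSys.word_step h.A hP 4 p0 _).2 (by decide +kernel)⟩
    · exact ⟨⟨2, hc _, p1⟩, 2, hc _, (RootSys.word_step h.A hP 4 p1 _).2 (by decide +kernel)⟩

end StData.Twist

namespace Cl

variable {m n : ℕ}

theorem swLast_swLast (c : Ix (m + 1)) : swLast (swLast c) = c := by
  rcases c with _ | c | c <;> simp only [swLast] <;> split_ifs <;> simp_all

theorem swLast_inj {c d : Ix (m + 1)} : swLast c = swLast d ↔ c = d :=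
  (Function.LeftInverse.injective swLast_swLast).eq_iff

theorem swLast_eq_none {c : Ix (m + 1)} : swLast c = none ↔ c = none := swLast_inj (d := none)

theorem adm.swLast {a b : Ix (m + 1)} (h : adm .D a b) : adm .D (swLast a) (swLast b) := by
  simpa [adm, ← swLast_bar, swLast_inj, swLast_eq_none] using h

theorem rho_D {κ' : Type*} (Y : (baseD n).R.Sym κ') (hY : ∀ i, Y.π i = dSwap n i) {a b : Ix (n + 2)} (h : adm .D a b) :
    Y.ρ (.mk a b h) = .mk _ _ h.swLast :=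
  Y.ρ_eq (Root.lift (fun a b h => .mk _ _ h.swLast) fun _ _ _ => Root.mk_swap _)
    (fun i => by rw [hY]; exact Root.mk_congr _ _ (baseD_dSwap i).1.symm (baseD_dSwap i).2.symm) (fun i r => by
      induction r using Root.ind with | H c d h _ =>
      simp only [hY, Base.R_σ, Root.refl_mk, Root.lift_mk]
      refine Root.mk_congr _ _ ?_ ?_ <;>
        simp only [baseD_dSwap i, piP, ← swLast_bar, swLast_inj, swLast_eq_none, apply_ite swLast]) _

theorem two_gen_2D [Finite F] {κ' : Type*} {S : StData (baseD (n + 2)).R F G} {T : S.Twist κ'} {s : F →+* F} {q : ℕ}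
    (h : T.IsQS s) (hπ : ∀ i, T.π i = dSwap _ i) (hs : ∀ t, s t = t ^ q) (hF : Nat.card F = q ^ 2) {j : G₀ →* G}
    (hj : T.IsLie j) : ∃ a b : G₀, Subgroup.closure {a, b} = ⊤ := by
  have := Fintype.ofFinite F
  have hS := hj.good
  have h4 := h.three_lt
  have hq : 2 ≤ q := by by_contra h; interval_cases q <;> omega
  obtain ⟨ζ, hζ⟩ := IsCyclic.exists_generator (α := Fˣ)
  have h0 := ζ.ne_zero
  obtain ⟨w, π, hw, hb, h1, h2, h3⟩ := exists_negCycle_D (baseD (n + 2)) (by decide)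
  have e0 : π (some (.inl 0)) = some (.inl 1) := h1 0
  have e1 : π (some (.inr (Fin.last _))) = some (.inl (Fin.last _)) := (hb (some (.inl _))).trans (congrArg bar h3)
  have n0 : (0 : Fin (n + 4)) ≠ Fin.last _ := (Fin.last_pos (n := n + 2)).ne
  have n1 : (1 : Fin (n + 4)) ≠ Fin.last _ := by simp [Fin.ext_iff]
  have n2 : (0 : Fin (n + 4)) ≠ (Fin.last _).castSucc := by simp [Fin.ext_iff]
  have n3 : (1 : Fin (n + 4)) ≠ (Fin.last _).castSucc := by simp [Fin.ext_iff]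
  have n4 : (Fin.last (n + 2)).castSucc ≠ Fin.last _ := Fin.castSucc_ne_last _
  have p1 : T.π (Fin.last _).castSucc = Fin.last _ := (hπ _).trans (Equiv.swap_apply_right _ _)
  have p2 : T.π (Fin.last _) = (Fin.last _).castSucc := (hπ _).trans (Equiv.swap_apply_left _ _)
  have hA : (baseD (n + 2)).R.A (Fin.last _).castSucc (Fin.last _) = 0 := by simp [baseD_A]
  have hf : ∀ t, T.f (Fin.last _) (T.f (Fin.last _).castSucc t) = t := by simp [h.f_eq, h.ss]
  have hJ := h.J_fix (i := 0) ((hπ _).trans (Equiv.swap_apply_of_ne_of_ne n0 n2))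
  have s0 : (baseD (n + 2)).R.simple 0 = .mk _ _ (adm_pm _ Fin.zero_ne_one) :=
    Root.mk_congr _ _ (by simp [baseD, baseSnoc, ← Fin.castSucc_zero, -Fin.castSucc_zero'])
      (by simp [baseD, baseSnoc, ← Fin.castSucc_zero, -Fin.castSucc_zero']; rfl)
  have s1 : (baseD (n + 2)).R.simple (Fin.last _).castSucc = .mk _ _ (adm_pm _ n4) :=
    Root.mk_congr _ _ (by simp [baseD, baseSnoc]) (by simp [baseD, baseSnoc])
  have s2 : (baseD (n + 2)).R.simple (Fin.last _) = .mk _ _ (adm_D _ (by decide) n4) :=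
    Root.mk_congr _ _ (by simp [baseD, baseSnoc]) (by simp [baseD, baseSnoc])
  have hz : (ζ : F) ^ q ≠ 0 := pow_ne_zero _ h0
  refine hj.two_gen (StData.Twist.par_two hS (p1 ▸ h.J_eq _) n4 hA p1 p2 hf) (k := 0)
    ⟨mul_mem (S.h_mem_H _ h0) (S.h_mem_H _ ((map_ne_zero _).2 h0)), (hj.isTw.h_mem_two hS n4 hA p1 p2 hf ζ).2⟩
    (χ := fun r => (ζ : F) ^ (baseD (n + 2)).R.pair (.mk _ _ (adm_pm _ n4)) r *
      ((ζ : F) ^ q) ^ (baseD (n + 2)).R.pair (.mk _ _ (adm_D _ (by decide) n4)) r) (fun r u => ?_)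
    ((T.mem_pos_one hS hJ).2 ⟨1, map_one _, rfl⟩) (StData.x_pow_card _ _) (fun r hr => ?_) (w := w) ⟨hw.1, ?_⟩
    (inv_mem (Subgroup.mem_zpowers _)) ?_ ?_ ?_
    (fun K hz' g hg eg => StData.Twist.pos_le_of_one hS hJ (mul_ne_zero (zpow_ne_zero _ h0) (zpow_ne_zero _ hz))
      (fun t t0 ht => ?_) hz' hg (eg _)) fun P hP q0 q1 a => ?_
  · rw [h.f_eq, hs, ← s1, ← s2, mul_assoc (_ ^ _), ← S.h_conj _ _ h0, ← S.h_conj _ _ hz]; group
  · rw [T.pos_eq_orth (by rw [hJ]; rintro _ rfl _ rfl h; exact absurd rfl h), hJ, Set.image_singleton] at hr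
    simp [show r = _ from hr, s0, Base.R_pair, Root.w_mk, Root.v_mk, cw, n0, n1, n2, n3, n4]
  · have key : ∀ a ≠ none, π (swLast a) = swLast (π a) := by
      have : ∀ i, π (swLast (some (.inl i))) = swLast (π (some (.inl i))) := fun i => by
        induction i using Fin.lastCases with
        | last => simp [swLast, e1, h3]
        | cast i =>
          induction i using Fin.lastCases with
          | last => simp [swLast, h2, n4, n0]
          | cast i => simp [swLast, h1, Fin.castSucc_ne_last]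
      rintro (_ | i | i) hi
      exacts [absurd rfl hi, this i, by rw [← bar_inl, swLast_bar, hb, hb, this, swLast_bar]]
    rw [mul_inv_eq_iff_eq_mul]
    ext1 r
    induction r using Root.ind with | H c d hcd hc =>
    obtain ⟨h', e⟩ := hw.2 c d hcd
    obtain ⟨h'', e'⟩ := hw.2 _ _ hcd.swLast
    rw [Equiv.Perm.mul_apply, Equiv.Perm.mul_apply, e, rho_D _ hπ, rho_D _ hπ, e']
    exact Root.mk_congr _ _ (key c hc).symm (key d fun e => by simpa using hcd.2.2.2.1 e).symm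
  · simpa [s1, Base.R_pair, Root.w_mk, Root.v_mk, cw, n4, n4.symm, zpow_ofNat] using
      gen_poly_pow hζ two_pos (.inl le_rfl)
  · simpa [s1, Base.R_pair, Root.w_mk, Root.v_mk, cw, n4, n4.symm, zpow_ofNat, -sq_eq_one_iff] using
      gen_pow_ne_one hζ two_pos h4
  · obtain ⟨h', e⟩ := hw.2 _ _ (adm_pm _ n4)
    obtain ⟨q, rfl⟩ := Nat.exists_eq_add_of_le' (show 1 ≤ q by omega)
    simpa [s1, e, h2, e1, Base.R_pair, Root.w_mk, Root.v_mk, cw, n4, n4.symm, n0, n2, pow_succ'] using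
      gen_pow_ne_one hζ (k := q) (by omega) (by rw [hF]; nlinarith)
  · obtain ⟨k, rfl⟩ := zpow_gen_of_fixed hζ hq (e := q + 1) (hF ▸ Nat.sq_sub_sq q 1) t0 (by rwa [h.f_eq, hs] at ht)
    obtain ⟨h', e⟩ := hw.2 _ _ (adm_D _ (by decide) n2).bar
    have e2 : w⁻¹ ((baseD (n + 2)).R.simple 0) = .mk _ _ (adm_D _ (by decide) n2).bar := by
      rw [Equiv.Perm.inv_eq_iff_eq, e, s0, Root.mk_swap]
      exact Root.mk_congr _ _ (by rw [hb, e0]; rfl) (by rw [hb, h2]; rfl)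
    exact ⟨-k, by simp [e2, Base.R_pair, Root.w_mk, Root.v_mk, cw, n4, n0, n2, pow_succ, mul_zpow, mul_comm]⟩
  · have hQ : ∀ a b, Qp P a b → Qp P (π a) (π b) := fun a b ⟨h, p⟩ => by
      obtain ⟨h', e⟩ := hw.2 a b h
      exact ⟨h', e ▸ hP _ (Subgroup.mem_zpowers _) _ p⟩
    have b := orbit_bin hb (f := fun k => some (.inl k.castSucc)) h1 h2 hQ ⟨_, s0 ▸ q1⟩
    have u := (orbit_un hb (f := fun k => some (.inl k.castSucc)) h1 h2
      (U := fun a => Qp P a (some (.inl (Fin.last _))) ∨ Qp P a (some (.inr (Fin.last _))))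
      (fun a h => h.elim (fun h => .inr (h3 ▸ hQ _ _ h)) fun h => .inl (e1 ▸ hQ _ _ h)) (i := Fin.last _)
      (.inr ⟨_, s1 ▸ q0⟩) (Fin.last _)).2
    have c1 : T.c (Fin.last _) = T.c (Fin.last _).castSucc := p1 ▸ T.c_π _
    have fin : ∀ a, a = T.c (Fin.last _) → (∃ l, T.c l = a ∧ P ((baseD (n + 2)).R.simple l)) ∧
        ∃ l, T.c l = a ∧ P ((baseD (n + 2)).R.neg ((baseD (n + 2)).R.simple l)) := by
      rintro _ rfl
      exact ⟨⟨_, c1.symm, q0⟩, u.elim (fun h => ⟨_, c1.symm, s1 ▸ h.2⟩) fun h => ⟨_, rfl, s2 ▸ h.2⟩⟩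
    obtain ⟨i, rfl⟩ := T.c_surj a
    induction i using Fin.lastCases with
    | last => exact fin _ rfl
    | cast i =>
      induction i using Fin.lastCases with
      | last => exact fin _ c1.symm
      | cast i =>
        have e : (baseD (n + 2)).R.simple i.castSucc.castSucc =
            .mk (some (.inl i.castSucc.castSucc)) (some (.inr i.succ.castSucc)) (b i).1.1 :=
          Root.mk_congr _ _ (by simp [baseD, baseSnoc]) (by simp [baseD, baseSnoc])
        exact ⟨⟨_, rfl, e ▸ (b i).1.2⟩, _, rfl, e ▸ (b i).2.2⟩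

theorem two_gen_minus {F : Type*} [Field F] [Fintype F] {a b : F}
    (hab : ∀ z₁ z₂ : F, z₁ ^ 2 + a * z₁ * z₂ + b * z₂ ^ 2 = 0 → z₁ = 0 ∧ z₂ = 0) (n : ℕ) :
    ∃ g h : Cfsg.POmega F (Cfsg.quadFormMinus (n + 3) F a b), Subgroup.closure {g, h} = ⊤ := by
  obtain ⟨K, _, _, e, hK, ω, h⟩ := exists_qSplit' hab
  obtain ⟨j, hj⟩ := isLie_minus h hab (n := n + 2) (by omega) (by omega)
  exact two_gen_2D (h.ptw_QS _) (h.ptw_π _) (Uni.sig_apply hK) (Nat.card_eq_fintype_card.trans hK) hj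

end Cl

end CL.Chev
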