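import Mathlib

set_option autoImplicit false

namespace CL.GramDisc

open Matrix

/-- The Gram determinant of the form `u ⬝ A v` in any basis is `det A` times a non-zero square. -/
theorem det_gram_basis {F : Type*} [Field F] {n : Type*} [Fintype n] [DecidableEq n]
    (A : Matrix n n F) {ι : Type*} [Fintype ι] [DecidableEq ι] (b : Module.Basis ι F (n → F)) :
    ∃ d : F, d ≠ 0 ∧ (Matrix.of (fun i j : ι => b i ⬝ᵥ (A *ᵥ b j))).det = A.det * d ^ 2 := by
  let e : ι ≃ n := b.indexEquiv (Pi.basisFun F n)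
  let P : Matrix n n F := (Pi.basisFun F n).toMatrix (b.reindex e)
  have hP : IsUnit P.det := by
    letI := Module.Basis.invertibleToMatrix (Pi.basisFun F n) (b.reindex e)
    exact Matrix.isUnit_det_of_invertible _
  refine ⟨P.det, hP.ne_zero, ?_⟩
  rw [← Matrix.det_submatrix_equiv_self e.symm]
  have : (Matrix.of (fun i j : ι => b i ⬝ᵥ (A *ᵥ b j))).submatrix e.symm e.symm = Pᵀ * A * P := by
    ext i j
    simp only [P, Matrix.submatrix_apply, Matrix.of_apply, Matrix.mul_apply, Matrix.transpose_apply,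
      Module.Basis.toMatrix_apply, Module.Basis.reindex_apply, Pi.basisFun_repr, dotProduct,
      Matrix.mulVec, Finset.mul_sum, Finset.sum_mul]
    rw [Finset.sum_comm]
    refine Finset.sum_congr rfl fun x _ => Finset.sum_congr rfl fun y _ => by ring
  rw [this, Matrix.det_mul, Matrix.det_mul, Matrix.det_transpose]
  ring

theorem isSquare_mul_sq_iff {F : Type*} [Field F] {x d : F} (hd : d ≠ 0) :
    IsSquare (x * d ^ 2) ↔ IsSquare x := by
  constructor
  · rintro ⟨r, hr⟩
    refine ⟨r / d, ?_⟩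
    field_simp
    linear_combination hr
  · rintro ⟨r, hr⟩
    exact ⟨r * d, by rw [hr]; ring⟩

/-- `(-1)^m` is a square in the field with `q` elements, `q` odd, iff `m (q-1)/2` is even. -/
theorem isSquare_neg_one_pow_iff {F : Type*} [Field F] [Fintype F] {q : ℕ}
    (hF : Fintype.card F = q) (hq : Odd q) (m : ℕ) :
    IsSquare ((-1 : F) ^ m) ↔ Even (m * (q - 1) / 2) := by
  obtain ⟨k, rfl⟩ := hq
  have h1 : m * (2 * k + 1 - 1) / 2 = m * k := by
    rw [Nat.add_sub_cancel, mul_left_comm, Nat.mul_div_cancel_left _ (by norm_num)]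
  rw [h1, Nat.even_mul]
  rcases Nat.even_or_odd m with hm | hm
  · simp [hm.neg_one_pow, hm]
  · rw [hm.neg_one_pow, FiniteField.isSquare_neg_one_iff, hF]
    have := Nat.not_even_iff_odd.2 hm
    simp only [this, false_or, Nat.even_iff]
    omega

theorem det_hyperbolic {F : Type*} [Field F] (m : ℕ) :
    (Matrix.fromBlocks (0 : Matrix (Fin m) (Fin m) F) 1 1 (0 : Matrix (Fin m) (Fin m) F)).det
      = (-1) ^ m := by
  have : (Matrix.fromBlocks (0 : Matrix (Fin m) (Fin m) F) 1 1 (0 : Matrix (Fin m) (Fin m) F)) =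
      Matrix.fromBlocks (1 : Matrix (Fin m) (Fin m) F) 0 1 (-1 : Matrix (Fin m) (Fin m) F) *
        Matrix.fromBlocks (1 : Matrix (Fin m) (Fin m) F) 1 0 (1 : Matrix (Fin m) (Fin m) F) *
        Matrix.fromBlocks (1 : Matrix (Fin m) (Fin m) F) 0 (-1) (1 : Matrix (Fin m) (Fin m) F) *
        Matrix.fromBlocks (-1 : Matrix (Fin m) (Fin m) F) 0 0 (1 : Matrix (Fin m) (Fin m) F) *
        Matrix.fromBlocks (-1 : Matrix (Fin m) (Fin m) F) 0 0 (1 : Matrix (Fin m) (Fin m) F) := by
    simp [Matrix.fromBlocks_multiply]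
  rw [this]
  simp [Matrix.det_mul, Matrix.det_neg, ← mul_pow]

end CL.GramDisc
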