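import Mathlib
import Cfsg.Agent.KSG.OrthMaxTS
import Cfsg.Agent.CLAS.FormCount

/-!
Quadratic forms over the field with two elements that share a given polar form.
-/

set_option autoImplicit false

namespace CL.Orth

open Module QuadraticMap

variable {V : Type*} [AddCommGroup V] [Module (ZMod 2) V]

theorem zmod2_cases (a : ZMod 2) : a = 0 ∨ a = 1 := by revert a; decide

theorem zmod2_aniso : ∀ z₁ z₂ : ZMod 2, z₁ ^ 2 + 1 * z₁ * z₂ + 1 * z₂ ^ 2 = 0 → z₁ = 0 ∧ z₂ = 0 := by
  decide

/-- A function with prescribed polarisation over the field with two elements is a quadratic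
form. -/
def ofFunTwo (Q : QuadraticForm (ZMod 2) V) (q : V → ZMod 2)
    (hq : ∀ u v, q (u + v) = q u + q v + polar Q u v) : QuadraticForm (ZMod 2) V where
  toFun := q
  toFun_smul a x := by
    rcases zmod2_cases a with rfl | rfl
    · have := hq 0 0
      simp only [add_zero, polar_zero_left, left_eq_add] at this
      simp [this]
    · simp
  exists_companion' := ⟨polarBilin Q, hq⟩

theorem ofFunTwo_apply (Q : QuadraticForm (ZMod 2) V) (q : V → ZMod 2)
    (hq : ∀ u v, q (u + v) = q u + q v + polar Q u v) (v : V) : ofFunTwo Q q hq v = q v := rfl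

theorem polar_ofFunTwo (Q : QuadraticForm (ZMod 2) V) (q : V → ZMod 2)
    (hq : ∀ u v, q (u + v) = q u + q v + polar Q u v) (u v : V) :
    polar (ofFunTwo Q q hq) u v = polar Q u v := by
  simp only [polar, ofFunTwo_apply, hq]; ring

theorem ofFunTwo_nondeg {Q : QuadraticForm (ZMod 2) V} (hQ : (polarBilin Q).Nondegenerate)
    (q : V → ZMod 2) (hq : ∀ u v, q (u + v) = q u + q v + polar Q u v) :
    (polarBilin (ofFunTwo Q q hq)).Nondegenerate :=
  nondeg_iff.2 fun x hx => eq_zero_of_polar hQ fun y => by rw [← polar_ofFunTwo Q q hq, hx]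

variable [FiniteDimensional (ZMod 2) V] {Q : QuadraticForm (ZMod 2) V}

theorem card_zero_ne_card_one (hQ : (polarBilin Q).Nondegenerate) :
    Nat.card {v // Q v = 0} ≠ Nat.card {v // Q v = 1} := by
  obtain ⟨m, hm⟩ := even_finrank_of_two_eq_zero hQ rfl
  have hF : Fintype.card (ZMod 2) = 2 := ZMod.card 2
  have plus : ∀ m, (∃ φ : (Fin m ⊕ Fin m → ZMod 2) ≃ₗ[ZMod 2] V, ∀ c, Q (φ c) = QPlus m _ c) →
      Nat.card {v // Q v = 0} ≠ Nat.card {v // Q v = 1} := by
    rintro m ⟨φ, hφ⟩
    have h : ∀ c, Nat.card {v // Q v = c} = Nat.card {v // Cfsg.quadFormPlus m (ZMod 2) v = c} :=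
      fun c => (Nat.card_congr (φ.toEquiv.subtypeEquiv fun v => by
        rw [← coe_QPlus, ← hφ]; rfl)).symm
    rw [h, h, CL.FormCount.card_quadFormPlus_eq hF, CL.FormCount.card_quadFormPlus_eq hF]
    simp
  rcases m with _ | m
  · refine plus 0 (exists_isometry_QPlus hQ hm ⟨⊥, by simp, by simp [hm]⟩)
  · rcases even_classification hQ (m := m) (by omega) zmod2_aniso with h | ⟨φ, hφ⟩
    · exact plus _ h
    · have h : ∀ c, Nat.card {v // Q v = c} =
          Nat.card {v // Cfsg.quadFormMinus m (ZMod 2) 1 1 v = c} :=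
        fun c => (Nat.card_congr (φ.toEquiv.subtypeEquiv fun v => by
          rw [← coe_QMinus, ← hφ]; rfl)).symm
      rw [h, h, CL.FormCount.card_quadFormMinus_eq hF _ zmod2_aniso,
        CL.FormCount.card_quadFormMinus_eq hF _ zmod2_aniso]
      simp

theorem exists_twist_iff (hQ : (polarBilin Q).Nondegenerate) (w : V) :
    (∃ g : V ≃ₗ[ZMod 2] V, ∀ v, Q v + polar Q v w = Q (g v)) ↔ Q w = 0 := by
  constructor
  · rintro ⟨g, hg⟩
    refine (zmod2_cases (Q w)).resolve_right fun h => card_zero_ne_card_one hQ ?_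
    refine Nat.card_congr ((g.symm.toEquiv.trans (Equiv.addRight w)).subtypeEquiv fun v => ?_)
    have h1 := hg (g.symm v)
    rw [g.apply_symm_apply] at h1
    simp only [Equiv.trans_apply, LinearEquiv.coe_toEquiv, Equiv.coe_addRight]
    rw [Q_add, h, add_right_comm, h1, add_eq_right]
  · intro h
    have hw : polar Q w w = 0 := by rw [polar_self', h, mul_zero]
    let t : V →ₗ[ZMod 2] V := LinearMap.id + (polarBilin Q w).smulRight w
    have ht : ∀ v, t v = v + polar Q w v • w := fun v => rfl
    have hinv : Function.Involutive t := fun v => by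
      rw [ht, ht, polar_add_right, polar_smul_right', hw, mul_zero, add_zero, add_assoc,
        ← add_smul, CharTwo.add_self_eq_zero, zero_smul, add_zero]
    refine ⟨LinearEquiv.ofInvolutive t hinv, fun v => ?_⟩
    rw [LinearEquiv.coe_ofInvolutive, ht, Q_add, Q_smul, h, polar_smul_right', polar_comm Q w v]
    rcases zmod2_cases (polar Q v w) with h | h <;> simp [h]

theorem exists_eq_add_polar (hQ : (polarBilin Q).Nondegenerate) (q : V → ZMod 2)
    (hq : ∀ u v, q (u + v) = q u + q v + polar Q u v) : ∃ w, ∀ v, q v = Q v + polar Q v w := by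
  let l : V →ₗ[ZMod 2] ZMod 2 :=
    { toFun := fun v => q v - Q v
      map_add' := fun u v => by rw [hq, Q_add]; ring
      map_smul' := fun a v => by
        have := (ofFunTwo Q q hq).map_smul a v
        simp only [ofFunTwo_apply] at this
        rw [this, Q_smul]
        rcases zmod2_cases a with rfl | rfl <;> simp }
  refine ⟨(LinearMap.BilinForm.toDual (polarBilin Q) hQ).symm l, fun v => ?_⟩
  rw [polar_comm, ← polarBilin_apply_apply, LinearMap.BilinForm.apply_toDual_symm_apply]
  simp [l]

/-- Forms with the polarisation of `Q` correspond to vectors. -/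
noncomputable def twistEquiv (hQ : (polarBilin Q).Nondegenerate) :
    V ≃ {q : V → ZMod 2 // ∀ u v, q (u + v) = q u + q v + polar Q u v} :=
  Equiv.ofBijective (fun w => ⟨fun v => Q v + polar Q v w, fun u v => by
    simp only [Q_add, polar_add_left]; ring⟩) ⟨fun w w' h => by
      rw [← sub_eq_zero]
      refine eq_zero_of_polar hQ fun y => ?_
      have := congrFun (congrArg Subtype.val h) y
      simp only [add_right_inj] at this
      rw [polar_comm, polar_sub_right, this, sub_self], fun q => by
      obtain ⟨w, hw⟩ := exists_eq_add_polar hQ q.1 q.2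
      exact ⟨w, Subtype.ext (funext fun v => (hw v).symm)⟩⟩

theorem twistEquiv_apply (hQ : (polarBilin Q).Nondegenerate) (w v : V) :
    (twistEquiv hQ w).1 v = Q v + polar Q v w := rfl

end CL.Orth
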