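import Mathlib
import Cfsg.Agent.KSG.SchurChev
import Cfsg.Agent.KSG.SchurNet
import Cfsg.Prelude.Def_ChevWords

/-! # Schur multiplier certificates: groups generated by words in root elements -/

set_option autoImplicit false

namespace CL.SchurC

open Cfsg CL.K Matrix

section
variable {ι F : Type*} [Fintype ι] [DecidableEq ι] [Field F] {G : Type*} [Group G]
  {ex : ℕ → ℕ} {mat : ℕ → Matrix ι ι F} {D : ℕ → ι → F} {V : ℕ → Prop}
  {act : ℕ → ℕ → ℕ} {bas : List ℕ}

theorem wd_range_succ {Γ : Type*} [Monoid Γ] (f : ℕ → Γ) (R : ℕ) (L : List ℕ) :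
    wd (fun i => f (lget (R :: L) i)) ((List.range L.length).map Nat.succ) = (L.map f).prod := by
  rw [wd, List.map_map]
  congr 1
  refine List.ext_getElem (by simp) fun i h1 h2 => ?_
  have h3 : i < L.length := by simpa using h2
  simp only [List.getElem_map, List.getElem_range, Function.comp_apply]
  rw [lget_cons_succ, lget_eq h3]

/-- The product of the matrices with codes in `L`. -/
theorem MatMdl.prod_eq (T : MatMdl ex mat D V act bas) {R : ℕ} {L : List ℕ}
    (h : weq act (lmap ex (R :: L)) (llen (R :: L)) bas [0] ((List.range L.length).map Nat.succ)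
      = true) : mat R = (L.map mat).prod := by
  have h1 : mat R * 1 = _ := T.wd_eq (R :: L) h
  rwa [mul_one, wd_range_succ] at h1

/-- Squares lie in a subgroup of index two. -/
theorem MatMdl.exists_sq (T : MatMdl ex mat D V act bas) (ρ : G →* Matrix ι ι F) {H : Subgroup G}
    (hH : H.index = 2) {A R : ℕ} (ha : ∃ a, ρ a = mat A)
    (h : weq act (lmap ex [R, A]) 2 bas [0] [1, 1] = true) :
    ∃ x : H, ρ.comp H.subtype x = mat R := by
  obtain ⟨a, ha⟩ := ha
  have h1 : mat R * 1 = mat A * (mat A * 1) := T.wd_eq [R, A] h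
  refine ⟨⟨a * a, Subgroup.mul_self_mem_of_index_two hH a⟩, ?_⟩
  show ρ (a * a) = _
  rw [map_mul, ha, ← mul_one (mat R), h1, mul_one]

end

/-- A generator given by a word: `z = (Z, A, B)` lists the letters with their codes, the code of the
product and the code of its inverse. -/
theorem MatMdl.exists_words {F : Type} [Field F] (E : Lie.ChevalleyDatum) {ex : ℕ → ℕ}
    {mat : ℕ → Matrix E.Idx E.Idx F} {D : ℕ → E.Idx → F} {V : ℕ → Prop}
    {act : ℕ → ℕ → ℕ} {bas : List ℕ} (T : MatMdl ex mat D V act bas) {S : Set (List (ℕ × F))}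
    (Z : List (List ((ℕ × F) × ℕ) × ℕ × ℕ)) (h0 : ∀ z ∈ Z, z.1.map Prod.fst ∈ S)
    (h1 : ∀ z ∈ Z, ∀ y ∈ z.1, mat y.2 = E.x F y.1.1 y.1.2)
    (h2 : lall (fun z : List ((ℕ × F) × ℕ) × ℕ × ℕ =>
      weq act (lmap ex [z.2.1, z.2.2]) 2 bas [0, 1] [] &&
      weq act (lmap ex (z.2.1 :: z.1.map Prod.snd)) (llen (z.2.1 :: z.1.map Prod.snd)) bas [0]
        ((List.range (z.1.map Prod.snd).length).map Nat.succ)) Z = true) :
    ∀ R ∈ lmap (fun z : List ((ℕ × F) × ℕ) × ℕ × ℕ => z.2.1) Z,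
      ∃ g, glMat (E.genSubgroup F S) g = mat R := by
  intro R hR
  rw [lmap_eq] at hR
  obtain ⟨z, hz, rfl⟩ := List.mem_map.1 hR
  have h3 := Bool.and_eq_true_iff.1 (lall_iff.1 h2 z hz)
  have h4 := T.mul_eq_one h3.1
  refine ⟨⟨⟨_, _, h4, mul_eq_one_comm.1 h4⟩, Subgroup.subset_closure ⟨_, h0 z hz, ?_⟩⟩, rfl⟩
  show mat z.2.1 = _
  rw [T.prod_eq h3.2, Lie.ChevalleyDatum.wordMat, List.map_map, List.map_map]
  exact congrArg List.prod (List.map_congr_left (h1 z hz))

end CL.SchurC
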