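import Mathlib
import Cfsg.Agent.KSG.Zel4
import Cfsg.Agent.KSG.GLnCent
import Cfsg.Agent.KSG.GLnSchur
import Cfsg.Agent.CHAR.PermChar

/-! The Steinberg character of `GL_n(q)` as a Möbius function. -/

set_option autoImplicit false
set_option linter.unusedSectionVars false

namespace CL.Zel

open Module CL.GLn Cfsg CL.Char Matrix Equiv Polynomial
open scoped ComplexConjugate

universe u

variable {F : Type u} [Field F] [Fintype F] [DecidableEq F] {V W Y : Type*}
  [AddCommGroup V] [Module F V] [Finite V] [AddCommGroup W] [Module F W] [Finite W]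
  [AddCommGroup Y] [Module F Y] [Finite Y] {f g h m : Cls F → ℂ} {n a b : ℕ}

/-- The indicator function of a dimension. -/
noncomputable def hd (k : ℕ) (c : Cls F) : ℂ := if c.dim = k then 1 else 0

theorem hg_hd (k : ℕ) : Hg k (hd (F := F) k) := fun c h => by by_contra h1; simp [hd, h1] at h

/-- The number of invariant flags. -/
noncomputable def fl : List ℕ → Cls F → ℂ
  | [] => one
  | k :: l => mul (hd k) (fl l)

/-- Block triangular matrices. -/
def BT (l : List ℕ) (M : Matrix (Fin n) (Fin n) F) : Prop :=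
  ∀ s, ∀ i j : Fin n, j.val < (l.take s).sum → (l.take s).sum ≤ i.val → M i j = 0

noncomputable scoped instance decBT (l : List ℕ) (M : Matrix (Fin n) (Fin n) F) : Decidable (BT l M) :=
  Classical.dec _

/-- The sum over the block triangular matrices. -/
noncomputable def sbt (l : List ℕ) (n : ℕ) (h : Cls F → ℂ) : ℂ :=
  ∑ M : Matrix (Fin n) (Fin n) F, if BT l M then h (cls (toLin' M)) else 0

theorem sbt_cons (l : List ℕ) (h : Cls F → ℂ) : sbt (a :: l) (a + b) h =
    (Fintype.card F : ℂ) ^ (a * b) * gl F a * sbt l b (prp a (hd a) h) := by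
  have h1 : ∀ (B : Matrix (Fin a) (Fin a) F) X (C : Matrix (Fin b) (Fin b) F),
      BT (a :: l) (fb B X C) ↔ BT l C := fun B X C => by
    refine ⟨fun h s i j h1 h2 => by simpa using h (s + 1) (i.natAdd a) (j.natAdd a) (by simpa) (by simpa),
      fun h s => ?_⟩
    rcases s with _ | s
    · simp
    · simp only [Fin.forall_fin_add, List.take_succ_cons, List.sum_cons, Fin.val_castAdd, Fin.val_natAdd,
        fb_nc, fb_nn, implies_true, true_and]
      exact ⟨fun i => ⟨fun j _ _ => by omega, fun j _ _ => by omega⟩,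
        fun i j h1 h2 => h s i j (by omega) (by omega)⟩
  rw [sbt, sum_fb _ fun M hM i k => by exact (ite_ne_right_iff.1 hM).1 1 _ _ (by simp) (by simp),
    Finset.sum_comm,
    sbt, Finset.mul_sum]
  refine Finset.sum_congr rfl fun C _ => ?_
  simp only [h1, Finset.sum_ite_irrel, sum_fb_eq, Finset.sum_const_zero, mul_ite, mul_zero,
    ← Finset.mul_sum]
  rw [mul_assoc, prp, tot_congr (g := fun c => res h c (cls (toLin' C))) fun c hc => by simp [hd, hc],
    tot, mul_div_cancel₀ _ (gl_ne_zero _),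
    ← Equiv.sum_comp toLin'.toEquiv fun B => res h (cls B) (cls (toLin' C))]
  rfl

theorem sbt_eq (l : List ℕ) (h : Cls F → ℂ) :
    sbt l l.sum h = sbt l l.sum (unit (F := F)) * tot l.sum fun c => fl l c * h c := by
  induction l generalizing h with
  | nil =>
    rw [List.sum_nil, sbt, sbt, Fintype.sum_subsingleton _ 1, Fintype.sum_subsingleton _ 1]
    simp [BT, tot_zero, fl, one, unit, End.one_eq_id]
  | cons a l ih =>
    rw [List.sum_cons, sbt_cons, sbt_cons, ih, fl, tot_mul_prp (hg_hd a), mul_assoc _ (sbt _ _ _),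
      show prp a (hd a) unit = unit from funext fun d => Eq.trans (tot_congr fun c hc => ?_) (prp_unit a d)]
    simp [hd, hc, res_unit, ← mul_assoc, unit_mul_self]

theorem fixedPointCharacter_eq {μ : Fin n → ℕ} (hμ : ∑ i, μ i = n) :
    fixedPointCharacter (parabolicGL n F μ) = toGL n (fl (List.ofFn μ)) := by
  classical
  have h1 : ∀ M : Matrix (Fin n) (Fin n) F, BT (List.ofFn μ) M ↔ M.BlockTriangular (compLabel μ) :=
    fun M => by
    simp only [BT, List.sum_take_ofFn, ← psum.eq_1, ← not_lt, ← compLabel_lt_iff hμ]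
    exact ⟨fun h i j hij => h (compLabel μ i) i j hij (lt_irrefl _), fun h s i j h1 h2 => h (by omega)⟩
  have h2 : ∀ h : Cls F → ℂ, (∀ c, h c ≠ 0 → c.det ≠ 0) →
      sbt (List.ofFn μ) n h = ∑ p : parabolicGL n F μ, toGL n h p := fun h hh => by
    refine (Fintype.sum_of_injective (fun p : parabolicGL n F μ => p.1.1) (Units.val_injective.comp
      Subtype.val_injective) _ _ (fun M hM => by_contra fun h3 => ?_)
      fun p => (if_pos ((h1 _).2 p.2)).symm).symm
    obtain ⟨h4, h5⟩ := ite_ne_right_iff.1 h3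
    exact hM ⟨⟨GeneralLinearGroup.mkOfDetNeZero M (by simpa using hh _ h5), (h1 M).1 h4⟩, rfl⟩
  rw [show fixedPointCharacter _ = _ from funext fun g => (indFun_one_eq_card_fixedBy _ g).symm]
  refine (indFun_isClassFunction _ _).ext_inner (isClassFunction_toGL _ _) fun χ hχ => ?_
  have h3 := sbt_eq (List.ofFn μ) (star (ofGL χ))
  rw [List.sum_ofFn, hμ, h2 _ fun c h => (sup_ofGL χ c (by simpa using h)).2,
    h2 _ fun c h => by simpa [unit] using h, ← ip, ip_ofGL _ ⟨χ, hχ⟩] at h3
  rw [classInner_indFun_left _ _ hχ.isClassFunction, classInner_def, inv_mul_eq_iff_eq_mul₀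
    (card_ne_zero _), Nat.card_eq_fintype_card]
  conv_lhs => rw [← toGL_ofGL hχ.isClassFunction]
  simpa [toGL, unit, GeneralLinearGroup.det_ne_zero] using h3

theorem hc_of_ker {π : V →ₗ[F] Y} {A : End F V} {C : End F Y} (h1 : Function.Surjective π)
    (h2 : ∀ v, π (A v) = C (π v)) (k : ℕ → ℂ) (g : Cls F → ℂ) :
    hc (fun c => k c.dim) g (LinearMap.ker π) A = k (finrank F (LinearMap.ker π)) * g (cls C) := by
  have h3 : ∀ v ∈ LinearMap.ker π, A v ∈ LinearMap.ker π := fun v hv => by simp_all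
  simpa using Ses.hc_eq (i := (LinearMap.ker π).subtype) (B := A.restrict h3)
    ⟨Submodule.injective_subtype _, h1, by simp, fun _ => rfl, h2⟩ (fun c => k c.dim) g

theorem hc_bot (k : ℕ → ℂ) (g : Cls F → ℂ) (A : End F V) :
    hc (fun c => k c.dim) g ⊥ A = k 0 * g (cls A) := by
  have := hc_of_ker (π := .id) (A := A) Function.surjective_id (fun _ => rfl) k g
  rwa [LinearMap.ker_id, finrank_bot] at this

theorem hd_zero_mul (g : Cls F → ℂ) : mul (hd 0) g = g := funext fun c => by
  rw [mul, Finset.sum_eq_single ⊥ (fun S _ hS => by_contra fun h => hS ?_) (by simp)]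
  · exact (hc_bot (fun k => if k = 0 then 1 else 0) g c.rep).trans (by simp)
  · obtain ⟨_, h1, -⟩ := hc_ne_zero h
    simpa using hg_hd 0 _ h1

variable (F) in
/-- The alternating sums. -/
noncomputable def alt (a n : ℕ) : Cls F → ℂ := ∑ κ : Perm (Fin n), if ∀ i, (κ i).val ≤ 1 + i.val then
  (Perm.sign κ : ℤ) • fl (List.ofFn fun i => 1 + i.val + (if (κ i).val = 0 then a else 0) - κ i) else 0

theorem alt_succ (a n : ℕ) : alt F a (n + 1) =
    mul (hd (a + 1)) (alt F 0 n) - if n = 0 then 0 else alt F (a + 1) n := by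
  rw [alt, ← Perm.decomposeFin.symm.sum_comp, Fintype.sum_prod_type, Fin.sum_univ_succ, sub_eq_add_neg]
  congr 1
  · rw [alt, ← show mulL _ _ = mul _ _ from rfl, map_sum]
    refine Finset.sum_congr rfl fun e _ => ?_
    rw [apply_ite (mulL _), map_zsmul, map_zero]
    simp [Fin.forall_fin_succ, add_comm 1, fl, add_right_comm _ 1, mulL]
  · rcases n with _ | n
    · simp
    rw [Fin.sum_univ_succ, Finset.sum_eq_zero (s := Finset.univ (α := Fin n)) fun i _ =>
      Finset.sum_eq_zero fun e _ => if_neg fun h => by simpa using h 0, add_zero, if_neg n.succ_ne_zero,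
      alt, ← Finset.sum_neg_distrib]
    refine Finset.sum_congr rfl fun e _ => ?_
    have h1 : ∀ x : Fin (n + 1), (swap (0 : Fin (n + 2)) 1 x.succ).val = if x.val = 0 then 0 else x.val + 1 := by
      rintro ⟨_ | x, hx⟩ <;> simp [swap_apply_def, Fin.ext_iff]
    rw [List.ofFn_succ, neg_ite, neg_zero, ← neg_smul]
    refine if_congr ?_ ?_ rfl
    · simp only [Fin.forall_fin_succ (n := n + 1), Perm.decomposeFin_symm_apply_succ, Fin.succ_zero_eq_one,
        h1, Perm.decomposeFin_symm_apply_zero]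
      simp only [Fin.val_succ]
      exact ⟨fun h i => by have := h.2 i; split_ifs at this <;> omega,
        fun h => ⟨by simp, fun i => by have := h i; split_ifs <;> omega⟩⟩
    · simp only [Perm.decomposeFin_symm_apply_succ, Fin.succ_zero_eq_one, h1, fl,
        Perm.decomposeFin_symm_apply_zero, Perm.decomposeFin.symm_sign]
      congr 1
      · simp
      · refine (hd_zero_mul _).trans (congrArg fl (congrArg _ (funext fun i => ?_)))
        by_cases h : (e i).val = 0 <;> simp [h] <;> omega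

theorem alt_eq (n a : ℕ) : alt F a (n + 1) = ∑ k ∈ Finset.range (n + 1),
    (-1 : ℂ) ^ k • mul (hd (a + 1 + k)) (alt F 0 (n - k)) := by
  induction n generalizing a with
  | zero => simp [alt_succ]
  | succ n ih =>
    rw [alt_succ, if_neg n.succ_ne_zero, ih (a + 1), Finset.sum_range_succ' _ (n + 1), sub_eq_neg_add,
      ← Finset.sum_neg_distrib]
    simp [pow_succ, add_assoc, add_comm 1, add_comm 2]

/-- The Möbius function. -/
noncomputable def mob (c : Cls F) : ℂ := (-1) ^ c.dim * alt F 0 c.dim c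

theorem mob_zero {c : Cls F} (h : c.dim = 0) : mob c = 1 := by
  rw [mob, h]; simp [alt, fl, one, h]

theorem mul_mob {c : Cls F} (h : c.dim ≠ 0) : mul (fun _ => 1) mob c = 0 := by
  obtain ⟨n, hn⟩ := Nat.exists_eq_succ_of_ne_zero h
  have h1 : ∀ S, hc (fun _ => 1) mob S c.rep = ∑ k ∈ Finset.range (n + 2),
      (-1) ^ (n + 1 - k) * hc (hd k) (alt F 0 (n + 1 - k)) S c.rep := fun S => by
    simp only [hc]
    split_ifs with h2
    · have := (ses_sub h2).finrank_eq
      rw [finrank_fin_fun] at this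
      rw [Finset.sum_eq_single (finrank F S) (fun k _ hk => by simp [hd, hk.symm]) (by simp; omega)]
      simp [mob, hd, show n + 1 - finrank F S = finrank F (_ ⧸ S) by omega]
    · simp
  simp only [mul, h1]
  rw [Finset.sum_comm, Finset.sum_range_succ']
  simp only [← Finset.mul_sum, ← mul.eq_1, hd_zero_mul, tsub_zero]
  rw [alt_eq, Finset.sum_apply, Finset.mul_sum, ← Finset.sum_add_distrib]
  refine Finset.sum_eq_zero fun k hk => ?_
  obtain ⟨j, rfl⟩ := Nat.exists_eq_add_of_le (Finset.mem_range_succ_iff.1 hk)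
  simp [pow_add, add_comm 1, mul_mul_mul_comm, ← mul_pow]

open Classical in
theorem sum_ge {π : V →ₗ[F] Y} {A : End F V} {C : End F Y} (h1 : Function.Surjective π)
    (h2 : ∀ v, π (A v) = C (π v)) : mul (fun _ => 1) m (cls C) =
      ∑ S, if LinearMap.ker π ≤ S then hc (fun _ => 1) m S A else 0 := by
  rw [mul_cls]
  refine Fintype.sum_of_injective (Submodule.comap π) (Submodule.comap_injective_of_surjective h1) _ _
    (fun S hS => if_neg fun h => hS ⟨S.map π, by simpa [Submodule.comap_map_eq]⟩) fun S => ?_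
  rw [if_pos (LinearMap.ker_le_comap π)]
  by_cases h : ∀ v ∈ S, C v ∈ S
  · have := hc_of_ker (π := S.mkQ ∘ₗ π) (A := A) (C := S.mapQ S C h) (S.mkQ_surjective.comp h1)
      (fun v => by simp [h2]) (fun _ => 1) m
    rw [LinearMap.ker_comp, S.ker_mkQ] at this
    rw [this, hc, dif_pos h]
  · rw [hc_of_not h, hc_of_not fun h' => h fun v hv => ?_]
    obtain ⟨v, rfl⟩ := h1 v
    exact h2 v ▸ h' v hv

open Classical in
theorem weisner {A : End F V} {U : Submodule F V} (h1 : ∀ v ∈ U, A v ∈ U) (h2 : U ≠ ⊤)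
    (T : Submodule F V) : (∑ S, if S ⊓ U = T then hc (fun _ => 1) mob S A else 0) = 0 := by
  induction T using WellFoundedGT.induction with
  | ind T ih =>
  by_cases h : T ≤ U ∧ ∀ v ∈ T, A v ∈ T
  · have h3 := sum_ge (m := mob) T.mkQ_surjective (ses_sub h.2).right
    rw [mul_mob (by
      rw [dim_cls, Ne, finrank_zero_iff, Submodule.Quotient.subsingleton_iff]
      rintro rfl; exact h2 (top_le_iff.1 h.1)), T.ker_mkQ] at h3
    refine (add_zero _).symm.trans (Eq.trans (congrArg _ (Finset.sum_eq_zero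
      (s := Finset.univ.filter (T < ·)) fun T' hT => ih T' (by simpa using hT)).symm) (Eq.trans ?_ h3.symm))
    rw [Finset.sum_comm, ← Finset.sum_add_distrib]
    refine Finset.sum_congr rfl fun S _ => ?_
    simp only [Finset.sum_ite_eq, Finset.mem_filter, Finset.mem_univ, true_and, lt_iff_le_and_ne,
      le_inf_iff, h.1, and_true]
    by_cases h4 : S ⊓ U = T
    · simp [h4, show T ≤ S from h4 ▸ inf_le_left]
    · simp [h4, Ne.symm h4]
  · refine Finset.sum_eq_zero fun S _ => ite_eq_right_iff.2 ?_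
    rintro rfl
    exact hc_of_not fun h3 => h ⟨inf_le_right, fun v hv => ⟨h3 v hv.1, h1 v hv.2⟩⟩

theorem mob_prodMap [Nontrivial Y] {C : End F Y} (B : End F W)
    (hC : ∀ S : Submodule F Y, (∀ v ∈ S, C v ∈ S) → S ≠ ⊥ → S = ⊤) :
    mob (cls (C.prodMap B)) = -(Fintype.card F : ℂ) ^ finrank F (homSp C B) * mob (cls B) := by
  classical
  have := Fintype.ofFinite (homSp C B)
  have h1 := weisner (A := C.prodMap B) (U := LinearMap.ker (.fst F Y W)) (by simp +contextual)
    (by simp [LinearMap.ker_eq_top, LinearMap.ext_iff, exists_ne]) ⊥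
  have h2 : ∀ φ : Y →ₗ[F] W, φ.graph ⊓ LinearMap.ker (.fst F Y W) = ⊥ := fun φ => by
    simp +contextual [Submodule.eq_bot_iff]
  rw [← Finset.add_sum_erase _ _ (Finset.mem_univ ⊥), if_pos (by simp), hc_bot (fun _ => 1), one_mul,
    ← Finset.sum_of_injOn (s := Finset.univ) (fun φ : homSp C B => φ.1.graph) (f := fun _ => mob (cls B))
      (fun φ _ ψ _ h => ?_) (fun φ _ => ?_) (fun S hS h => ?_) fun φ _ => ?_] at h1
  · rw [Finset.sum_const, Finset.card_univ, Module.card_eq_pow_finrank (K := F)] at h1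
    simpa [eq_neg_iff_add_eq_zero] using h1
  · exact Subtype.ext (LinearMap.ext fun y => h.le (show (y, φ.1 y) ∈ φ.1.graph from rfl))
  · obtain ⟨y, hy⟩ := exists_ne (0 : Y)
    exact Finset.mem_erase.2 ⟨(Submodule.ne_bot_iff _).2 ⟨(y, φ.1 y), rfl, by simp [hy]⟩, Finset.mem_univ _⟩
  · by_contra h3
    obtain ⟨h4, h5⟩ := ite_ne_right_iff.1 h3
    obtain ⟨h5, -⟩ := hc_ne_zero h5
    have h6 : Function.Injective (Prod.fst ∘ S.subtype) := LinearMap.ker_eq_bot.1 (show
      LinearMap.ker (.fst F Y W ∘ₗ S.subtype) = ⊥ by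
        rw [LinearMap.ker_comp, ← Submodule.disjoint_iff_comap_eq_bot, disjoint_iff, h4])
    have h7 := hC (S.map (.fst F Y W)) (by rintro _ ⟨v, hv, rfl⟩; exact ⟨_, h5 v hv, rfl⟩) fun h =>
      (Finset.mem_erase.1 hS).1 (h4 ▸ (inf_eq_left.2 (LinearMap.le_ker_iff_map.2 h)).symm)
    obtain ⟨φ, rfl⟩ := Submodule.exists_eq_graph ⟨h6, fun y => by
      obtain ⟨v, hv, rfl⟩ := h7.ge (Submodule.mem_top (x := y))
      exact ⟨⟨v, hv⟩, rfl⟩⟩
    exact h ⟨⟨φ, fun y => (h5 (y, φ y) rfl).symm⟩, by simp, rfl⟩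
  · rw [if_pos (h2 _), LinearMap.graph_eq_ker_coprod, hc_of_ker (C := B) (fun w => ⟨(0, w), by simp⟩)
      (fun v => by simp [φ.2 v.1]) fun _ => 1, one_mul]

theorem finrank_homSp_cyc [FiniteDimensional F W] (p : F[X]) (B : End F W) :
    finrank F (homSp (cyc p) B) = kd B p := by
  let Φ : homSp (cyc p) B →ₗ[F] LinearMap.ker (aeval B p) :=
    { toFun := fun φ => ⟨φ.1 1, by simp [← intertwine_aeval φ.1 φ.2, aeval_cyc_apply]⟩
      map_add' := fun _ _ => rfl
      map_smul' := fun _ _ => rfl }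
  refine (LinearEquiv.ofBijective Φ ⟨fun φ ψ h => Subtype.ext (LinearMap.ext fun v => ?_),
    fun w => ?_⟩).finrank_eq
  · obtain ⟨f, rfl⟩ := AdjoinRoot.mk_surjective v
    rw [← mul_one (AdjoinRoot.mk p f), ← aeval_cyc_apply, intertwine_aeval φ.1 φ.2,
      intertwine_aeval ψ.1 ψ.2, show φ.1 1 = ψ.1 1 from congrArg Subtype.val h]
  · obtain ⟨φ, h⟩ := exists_hom_cyc p B w.1 w.2
    refine ⟨⟨φ, fun v => ?_⟩, Subtype.ext (show φ 1 = w.1 by simpa using h 1)⟩
    obtain ⟨f, rfl⟩ := AdjoinRoot.mk_surjective v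
    rw [cyc_apply, ← AdjoinRoot.mk_X, ← map_mul, h, h]; simp

theorem simple_cyc {p : F[X]} (hp : Irreducible p) (S : Submodule F (AdjoinRoot p))
    (h : ∀ v ∈ S, cyc p v ∈ S) (h0 : S ≠ ⊥) : S = ⊤ := by
  have := Fact.mk hp
  obtain ⟨v, hv, h1⟩ := (Submodule.ne_bot_iff _).1 h0
  refine eq_top_iff.2 fun w _ => ?_
  obtain ⟨f, hf⟩ := AdjoinRoot.mk_surjective (w / v)
  rw [← div_mul_cancel₀ w h1, ← hf, ← aeval_cyc_apply, ← show S.subtype ⟨v, hv⟩ = v from rfl,
    ← intertwine_aeval (A := (cyc p).restrict h) S.subtype fun _ => rfl]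
  exact Subtype.prop _

theorem prod_toFinset_cons {α : Type*} [DecidableEq α] (G : α → ℕ → ℂ) (h0 : ∀ f, G f 0 = 1) (p : α)
    (s : Multiset α) {r : ℂ} (h : G p (s.count p + 1) = r * G p (s.count p)) :
    ∏ f ∈ (p ::ₘ s).toFinset, G f ((p ::ₘ s).count f) = r * ∏ f ∈ s.toFinset, G f (s.count f) := by
  rw [Finset.prod_subset (show s.toFinset ⊆ (p ::ₘ s).toFinset by simp) fun f _ hf => by
    rw [Multiset.count_eq_zero.2 (by simpa using hf), h0],
    ← Finset.mul_prod_erase _ _ (show p ∈ _ by simp),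
    ← Finset.mul_prod_erase (p ::ₘ s).toFinset _ (show p ∈ _ by simp),
    Multiset.count_cons_self, h, mul_assoc, Finset.prod_congr rfl fun f hf => by
      rw [Multiset.count_cons_of_ne (Finset.ne_of_mem_erase hf)]]

theorem mob_model {k : ℕ} (x : Fin k → F[X]) (hx : ∀ i, (x i).Monic ∧ Irreducible (x i))
    [Finite (∀ i, AdjoinRoot (x i))] : mob (cls (model x)) = ∏ f ∈ (Finset.univ.val.map x).toFinset,
      (-1 : ℂ) ^ (Finset.univ.val.map x).count f * (Fintype.card F : ℂ) ^ (f.natDegree *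
        (Finset.univ.val.map x).count f * ((Finset.univ.val.map x).count f - 1) / 2) := by
  induction k with
  | zero => simpa using mob_zero (by simp [finrank_zero_of_subsingleton])
  | succ k ih =>
    have := fun i => finiteDimensional_adjoinRoot (hx i).1.ne_zero
    have := fun i => Module.finite_of_finite F (M := AdjoinRoot (x i))
    have := AdjoinRoot.nontrivial _ (degree_pos_of_irreducible (hx 0).2).ne'
    have h2 : ∑ i : Fin k, kd (cyc (x i.succ)) (x 0) =
        (Finset.univ.val.map fun i : Fin k => x i.succ).count (x 0) * (x 0).natDegree := by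
      rw [Multiset.count_map, ← Finset.filter_val, Finset.card_val, Finset.card_filter, Finset.sum_mul]
      refine Finset.sum_congr rfl fun i _ => ?_
      split_ifs with h
      · rw [← h, kd_cyc_of_dvd (hx 0).1.ne_zero dvd_rfl, one_mul]
      · exact (kd_cyc_of_isCoprime (hx _).1.ne_zero
          (isCoprime_of_monic_irreducible_ne (hx 0).1 (hx 0).2 (hx _).1 (hx _).2 h)).trans (zero_mul _).symm
    rw [← cls_eq_of (Fin.consLinearEquiv F fun i => AdjoinRoot (x i))
      (A := (cyc (x 0)).prodMap (model fun i : Fin k => x i.succ))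
      fun v => _root_.funext fun i => by cases i using Fin.cases <;> rfl, mob_prodMap _ (simple_cyc (hx 0).2),
      ih _ fun _ => hx _, finrank_homSp_cyc, kd_model fun _ => (hx _).1.ne_zero, h2,
      show Finset.univ.val.map x = x 0 ::ₘ Finset.univ.val.map fun i : Fin k => x i.succ by simp]
    generalize (Finset.univ.val.map fun i : Fin k => x i.succ) = s
    rw [prod_toFinset_cons (fun (f : F[X]) c => (-1 : ℂ) ^ c * (Fintype.card F : ℂ) ^
      (f.natDegree * c * (c - 1) / 2)) (by simp)]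
    have h1 : ∀ c, (x 0).natDegree * c * (c - 1) / 2 = (x 0).natDegree * c.choose 2 := fun c => by
      rw [mul_assoc, Nat.mul_div_assoc _ (Nat.even_mul_pred_self c).two_dvd, Nat.choose_two_right]
    simp only [h1, Nat.choose_succ_succ', Nat.choose_one_right]
    ring

theorem steinberg_eq (x : GL (Fin n) F) :
    unipotentCharacterGL n F (fun _ => 1) x = (-1) ^ n * mob (cls (toLin' x.1)) := by
  rw [mob, dim_cls, finrank_fin_fun, ← mul_assoc, ← mul_pow, neg_one_mul, neg_neg, one_pow, one_mul, alt,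
    Finset.sum_apply]
  refine Finset.sum_congr rfl fun κ _ => ?_
  split_ifs with h
  · rw [fixedPointCharacter_eq (by simpa using sum_sub_perm (ν := fun _ => 1) h)]
    simp [toGL]
  · rfl

end CL.Zel
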